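import Cfsg.Agent.Lib.Perm7.Simple
import Cfsg.Agent.Lib.Char.ClassProd

/-!
# The case `|E|` even: the involution of `E` and products of two of its conjugates
-/

set_option autoImplicit false
set_option linter.unusedSectionVars false
set_option linter.style.haveILetI false

namespace Cfsg.Agent.Lib.Perm7.Core

open Cfsg Cfsg.Agent.Lib.Perm7.Exc Cfsg.Agent.Lib.Char.ClassProd

universe u

variable {G : Type u} [Group G] [Finite G] {p : ℕ} [hp : Fact p.Prime] {P E : Subgroup G}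
  {u : G} {χp : G → ℂ}

omit [Finite G] in
/-- A second element of `N(E) ∖ E`. -/
theorem TIE.change (h : TIE E u) {v : G} (hv : v ∈ Subgroup.normalizer (E : Set G)) (hvE : v ∉ E) : TIE E v := by
  refine ⟨hv, hvE, fun a ha => ?_, h.hti, h.hcomm⟩
  rcases h.hN2 a ha with h1 | h1
  · exact Or.inl h1
  · right
    have h2 : u⁻¹ * v ∈ E := by
      rcases h.hN2 v hv with h3 | h3
      · exact absurd h3 hvE
      · exact h3
    have h3 := E.mul_mem (E.inv_mem h2) h1
    have h4 : (u⁻¹ * v)⁻¹ * (u⁻¹ * a) = v⁻¹ * a := by group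
    rwa [h4] at h3

omit [Finite G] hp in
theorem Sys.change_u (S : Sys p P E u χp) {v : G} (hv : v ∈ Subgroup.normalizer (E : Set G)) (hvE : v ∉ E) :
    Sys p P E v χp :=
  { S with hT := TIE.change S.hT hv hvE }

/-- The uniqueness of the involution of a cyclic group. -/
theorem invol_unique {A : Type*} [Group A] [Finite A] [IsCyclic A] {z y : A} (hz : z ≠ 1) (hz2 : z * z = 1)
    (hy2 : y * y = 1) : y = 1 ∨ y = z := by
  classical
  letI := Fintype.ofFinite A
  by_contra hcon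
  push Not at hcon
  obtain ⟨h1, h2⟩ := hcon
  have h3 := IsCyclic.card_pow_eq_one_le (α := A) (n := 2) (by norm_num)
  have h4 : ({1, z, y} : Finset A) ⊆ Finset.univ.filter (fun a => a ^ 2 = 1) := by
    intro a ha
    simp only [Finset.mem_insert, Finset.mem_singleton] at ha
    simp only [Finset.mem_filter, Finset.mem_univ, true_and]
    rcases ha with rfl | rfl | rfl
    · simp
    · rw [sq]; exact hz2
    · rw [sq]; exact hy2
  have h5 := Finset.card_le_card h4
  rw [Finset.card_insert_of_notMem (by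
    simp only [Finset.mem_insert, Finset.mem_singleton, not_or]
    exact ⟨Ne.symm hz, Ne.symm h1⟩), Finset.card_pair (Ne.symm h2)] at h5
  omega

/-- A proper subgroup of a finite abelian group is killed by a nontrivial linear character. -/
theorem exists_hom_trivial_on {A : Type u} [Group A] [Finite A] (hcomm : ∀ a b : A, a * b = b * a) (B : Subgroup A)
    (hB : B ≠ ⊤) : ∃ θ : A →* ℂˣ, θ ≠ 1 ∧ ∀ b ∈ B, θ b = 1 := by
  classical
  haveI hn : B.Normal := ⟨fun n hn g => by
    rw [hcomm g n]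
    simpa using hn⟩
  obtain ⟨g, hg⟩ : ∃ g, g ∉ B := by
    by_contra hall
    push Not at hall
    exact hB (eq_top_iff.mpr fun x _ => hall x)
  letI : Fintype (A ⧸ B) := Fintype.ofFinite _
  let T : Subgroup (A ⧸ B) := ⊤
  letI : Fintype T := Fintype.ofFinite _
  have hcommT : ∀ a b : T, a * b = b * a := by
    rintro ⟨a, -⟩ ⟨b, -⟩
    apply Subtype.ext
    obtain ⟨x, rfl⟩ := QuotientGroup.mk'_surjective B a
    obtain ⟨y, rfl⟩ := QuotientGroup.mk'_surjective B b
    show (QuotientGroup.mk' B) x * (QuotientGroup.mk' B) y = (QuotientGroup.mk' B) y * (QuotientGroup.mk' B) x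
    rw [← map_mul, ← map_mul, hcomm]
  have hc : (⟨QuotientGroup.mk' B g, trivial⟩ : T) ≠ 1 := by
    intro h
    apply hg
    have h3 : QuotientGroup.mk' B g = 1 := congrArg Subtype.val h
    rwa [← MonoidHom.mem_ker, QuotientGroup.ker_mk'] at h3
  obtain ⟨ψ, hψ⟩ := exists_hom_ne_one hcommT hc
  refine ⟨ψ.comp ((QuotientGroup.mk' B).codRestrict T (fun _ => trivial)), ?_, ?_⟩
  · intro h
    apply hψ
    have h4 := DFunLike.congr_fun h g
    exact h4
  · intro b hb
    have h3 : ((QuotientGroup.mk' B).codRestrict T (fun _ => trivial)) b = 1 := by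
      apply Subtype.ext
      show QuotientGroup.mk' B b = 1
      rw [← MonoidHom.mem_ker, QuotientGroup.ker_mk']
      exact hb
    rw [MonoidHom.comp_apply, h3, map_one]

section Inv

variable (S : Sys p P E u χp) {z : G} (hzE : z ∈ E) (hz1 : z ≠ 1) (hz2 : z * z = 1)
include S hzE hz1 hz2

theorem Sys.eq_z {y : G} (hy : y ∈ E) (hy2 : y * y = 1) : y = 1 ∨ y = z := by
  haveI := S.hcyc
  have h := invol_unique (A := E) (z := ⟨z, hzE⟩) (y := ⟨y, hy⟩) (fun h => hz1 (congrArg Subtype.val h))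
    (Subtype.ext hz2) (Subtype.ext hy2)
  rcases h with h | h
  · exact Or.inl (congrArg Subtype.val h)
  · exact Or.inr (congrArg Subtype.val h)

theorem Sys.conj_z_of_norm {a : G} (ha : a ∈ Subgroup.normalizer (E : Set G)) : a * z * a⁻¹ = z := by
  have h1 : a * z * a⁻¹ ∈ E := (Subgroup.mem_set_normalizer_iff.mp ha z).mp hzE
  have h2 : (a * z * a⁻¹) * (a * z * a⁻¹) = 1 := by
    calc (a * z * a⁻¹) * (a * z * a⁻¹) = a * (z * z) * a⁻¹ := by group
      _ = 1 := by rw [hz2]; group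
  rcases S.eq_z hzE hz1 hz2 h1 h2 with h3 | h3
  · exfalso
    apply hz1
    have h4 : z = a⁻¹ * (a * z * a⁻¹) * a := by group
    rw [h4, h3]
    group
  · exact h3

theorem Sys.centralizer_z : Subgroup.centralizer ({z} : Set G) = Subgroup.normalizer (E : Set G) := by
  ext a
  rw [Subgroup.mem_centralizer_singleton_iff]
  constructor
  · intro h
    apply S.hT.hti a z hzE hz1
    have h1 : a * z * a⁻¹ = z := by rw [h]; group
    rw [h1]
    exact hzE
  · intro h
    have h1 := S.conj_z_of_norm hzE hz1 hz2 h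
    exact mul_inv_eq_iff_eq_mul.mp h1

theorem Sys.card_class_z (hNc : Nat.card (Subgroup.normalizer (E : Set G)) = 2 * Nat.card E) :
    Nat.card {x : G // IsConj z x} * (2 * Nat.card E) = Nat.card G := by
  have h := Cfsg.Agent.Lib.Char.ClassSum.card_class_mul_card_centralizer z
  rwa [S.centralizer_z hzE hz1 hz2, hNc] at h

omit S hzE hz1 in
theorem sq_of_conj {s : G} (hs : IsConj z s) : s * s = 1 := by
  obtain ⟨g, rfl⟩ := isConj_iff.mp hs
  calc g * z * g⁻¹ * (g * z * g⁻¹) = g * (z * z) * g⁻¹ := by group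
    _ = 1 := by rw [hz2]; group

omit S hzE hz2 in
theorem ne_one_of_conj {s : G} (hs : IsConj z s) : s ≠ 1 := by
  rintro rfl
  apply hz1
  exact isConj_one_right.mp hs.symm

/-- The factors of an element of `E#`. -/
theorem Sys.pair {x : G} (hx : x ∈ E) (hx1 : x ≠ 1) {s t : G} (hs : IsConj z s) (ht : IsConj z t) (hst : s * t = x) :
    s ∈ Subgroup.normalizer (E : Set G) ∧ s ∉ E ∧ s * x * s⁻¹ = x⁻¹ ∧ t = s * x := by
  have hs2 := sq_of_conj hz2 hs
  have ht2 := sq_of_conj hz2 ht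
  have hsinv : s⁻¹ = s := inv_eq_of_mul_eq_one_left hs2
  have htinv : t⁻¹ = t := inv_eq_of_mul_eq_one_left ht2
  have h1 : s * x * s⁻¹ = x⁻¹ := by
    rw [← hst, mul_inv_rev, hsinv, htinv, ← mul_assoc, hs2, one_mul]
  have h2 : s ∈ Subgroup.normalizer (E : Set G) := by
    apply S.hT.hti s x hx hx1
    rw [h1]
    exact E.inv_mem hx
  have h3 : t = s * x := by
    rw [← hst, ← mul_assoc, hs2, one_mul]
  refine ⟨h2, ?_, h1, h3⟩
  intro hsE
  have h4 : t ∈ E := by
    rw [h3]
    exact E.mul_mem hsE hx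
  have h5 : s = z := (S.eq_z hzE hz1 hz2 hsE hs2).resolve_left (ne_one_of_conj hz1 hs)
  have h6 : t = z := (S.eq_z hzE hz1 hz2 h4 ht2).resolve_left (ne_one_of_conj hz1 ht)
  apply hx1
  rw [← hst, h5, h6, hz2]

/-- The main group-theoretic statement: a support condition forces `N(E)` to be dihedral and all its outer
involutions conjugate to `z`. -/
theorem Sys.count_eq (hsupp : ∀ θ : E →* ℂˣ, θ ≠ 1 → ∃ x : E, x ≠ 1 ∧ classProdCount z z (x : G) ≠ 0 ∧ θ x ≠ 1) :
    ∃ u₀ : G, u₀ ∈ Subgroup.normalizer (E : Set G) ∧ u₀ ∉ E ∧ u₀ * u₀ = 1 ∧ (∀ x : E, u₀ * x * u₀⁻¹ = (x : G)⁻¹) ∧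
      ∀ x : E, x ≠ 1 → classProdCount z z (x : G) = Nat.card E := by
  classical
  letI := Fintype.ofFinite G
  letI : Fintype E := Fintype.ofFinite _
  haveI hcyc := S.hcyc
  have hcomm := S.hT.hcomm
  -- pairs from the count
  have hpairs : ∀ x : E, classProdCount z z (x : G) ≠ 0 → ∃ s t : G, IsConj z s ∧ IsConj z t ∧ s * t = x := by
    intro x hx
    have h1 : Nonempty {p : G × G // IsConj z p.1 ∧ IsConj z p.2 ∧ p.1 * p.2 = x} := by
      by_contra hne
      rw [not_nonempty_iff] at hne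
      apply hx
      exact Nat.card_of_isEmpty
    obtain ⟨⟨⟨s, t⟩, h2, h3, h4⟩⟩ := h1
    exact ⟨s, t, h2, h3, h4⟩
  -- a first outer involution
  have hz' : (⟨z, hzE⟩ : E) ≠ 1 := fun h => hz1 (congrArg Subtype.val h)
  obtain ⟨ψ, hψ⟩ := exists_hom_ne_one hcomm hz'
  have hψ1 : ψ ≠ 1 := by
    rintro rfl
    exact hψ rfl
  obtain ⟨x₀, hx₀, hx₀c, -⟩ := hsupp ψ hψ1
  obtain ⟨u₀, t₀, hu₀, ht₀, hu₀t₀⟩ := hpairs x₀ hx₀c
  have hx₀G : (x₀ : G) ≠ 1 := fun h => hx₀ (Subtype.ext h)
  obtain ⟨hu₀N, hu₀E, -, -⟩ := S.pair hzE hz1 hz2 x₀.2 hx₀G hu₀ ht₀ hu₀t₀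
  have hu₀2 := sq_of_conj hz2 hu₀
  have hu₀inv : u₀⁻¹ = u₀ := inv_eq_of_mul_eq_one_left hu₀2
  have hT₀ : TIE E u₀ := TIE.change S.hT hu₀N hu₀E
  -- conjugation by an outer element
  have hsu : ∀ s : G, s ∈ Subgroup.normalizer (E : Set G) → s ∉ E → ∃ a : E, s = u₀ * a := by
    intro s hs hsE
    rcases hT₀.hN2 s hs with h | h
    · exact absurd h hsE
    · exact ⟨⟨_, h⟩, by simp⟩
  have hconj : ∀ (a x : E), (u₀ * a) * x * (u₀ * a)⁻¹ = u₀ * x * u₀⁻¹ := by
    intro a x
    have h1 : (a : G) * x = x * a := congrArg Subtype.val (hcomm a x)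
    calc (u₀ * a) * x * (u₀ * a)⁻¹ = u₀ * ((a : G) * x) * (a : G)⁻¹ * u₀⁻¹ := by group
      _ = u₀ * (x * a) * (a : G)⁻¹ * u₀⁻¹ := by rw [h1]
      _ = u₀ * x * u₀⁻¹ := by group
  -- the elements inverted
  let E₀ : Subgroup E :=
    { carrier := {x | u₀ * (x : G) * u₀⁻¹ = (x : G)⁻¹}
      mul_mem' := by
        intro a b ha hb
        show u₀ * ((a * b : E) : G) * u₀⁻¹ = ((a * b : E) : G)⁻¹
        have h1 : (b : G) * a = a * b := congrArg Subtype.val (hcomm b a)
        simp only [Subgroup.coe_mul]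
        have ha' : u₀ * (a : G) * u₀⁻¹ = (a : G)⁻¹ := ha
        have hb' : u₀ * (b : G) * u₀⁻¹ = (b : G)⁻¹ := hb
        calc u₀ * ((a : G) * b) * u₀⁻¹ = (u₀ * a * u₀⁻¹) * (u₀ * b * u₀⁻¹) := by group
          _ = ((b : G) * a)⁻¹ := by rw [ha', hb']; group
          _ = _ := by rw [h1]
      one_mem' := by
        show u₀ * ((1 : E) : G) * u₀⁻¹ = ((1 : E) : G)⁻¹
        simp
      inv_mem' := by
        intro a ha
        show u₀ * ((a⁻¹ : E) : G) * u₀⁻¹ = ((a⁻¹ : E) : G)⁻¹
        have ha' : u₀ * (a : G) * u₀⁻¹ = (a : G)⁻¹ := ha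
        simp only [Subgroup.coe_inv, inv_inv]
        calc u₀ * (a : G)⁻¹ * u₀⁻¹ = (u₀ * a * u₀⁻¹)⁻¹ := by group
          _ = a := by rw [ha', inv_inv] }
  have hinverted : ∀ x : E, classProdCount z z (x : G) ≠ 0 → x ≠ 1 → x ∈ E₀ := by
    intro x hc hx1
    obtain ⟨s, t, hs, ht, hst⟩ := hpairs x hc
    have hxG : (x : G) ≠ 1 := fun h => hx1 (Subtype.ext h)
    obtain ⟨h1, h2, h3, -⟩ := S.pair hzE hz1 hz2 x.2 hxG hs ht hst
    obtain ⟨a, rfl⟩ := hsu s h1 h2
    show u₀ * (x : G) * u₀⁻¹ = (x : G)⁻¹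
    rw [← hconj a x]
    exact h3
  have hE₀ : E₀ = ⊤ := by
    by_contra hne
    obtain ⟨θ, hθ, hθ₀⟩ := exists_hom_trivial_on hcomm E₀ hne
    obtain ⟨x, hx1, hxc, hxθ⟩ := hsupp θ hθ
    exact hxθ (hθ₀ x (hinverted x hxc hx1))
  have hinv : ∀ x : E, u₀ * x * u₀⁻¹ = (x : G)⁻¹ := by
    intro x
    have h1 : x ∈ E₀ := by rw [hE₀]; trivial
    exact h1
  have hcommu : ∀ x : E, u₀ * x * u₀ = (x : G)⁻¹ := by
    intro x
    have h1 := hinv x
    rwa [hu₀inv] at h1
  -- the set of `a` with `u₀ a` conjugate to `z`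
  have hT1 : IsConj z (u₀ * ((1 : E) : G)) := by simpa using hu₀
  have hTsq : ∀ a b : E, IsConj z (u₀ * (a : G)) → IsConj z (u₀ * ((a * (b * b) : E) : G)) := by
    intro a b h
    refine h.trans (isConj_iff.mpr ⟨(b : G)⁻¹, ?_⟩)
    have h1 : (b : G)⁻¹ * u₀ = u₀ * b := by
      have h2 := hcommu b
      calc (b : G)⁻¹ * u₀ = (u₀ * b * u₀) * u₀ := by rw [h2]
        _ = u₀ * b * (u₀ * u₀) := by group
        _ = u₀ * b := by rw [hu₀2, mul_one]
    have h3 : (a : G) * b = b * a := congrArg Subtype.val (hcomm a b)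
    calc (b : G)⁻¹ * (u₀ * a) * (b : G)⁻¹⁻¹ = ((b : G)⁻¹ * u₀) * a * b := by group
      _ = u₀ * b * a * b := by rw [h1]
      _ = u₀ * (b * a) * b := by group
      _ = u₀ * (a * b) * b := by rw [h3]
      _ = u₀ * ((a * (b * b) : E) : G) := by
          simp only [Subgroup.coe_mul]
          group
  have hTall : ∀ a : E, IsConj z (u₀ * (a : G)) := by
    by_contra hcon
    push Not at hcon
    obtain ⟨a₀, ha₀⟩ := hcon
    -- the subgroup of squares
    let B : Subgroup E :=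
      { carrier := {x | ∃ b : E, x = b * b}
        mul_mem' := by
          rintro _ _ ⟨a, rfl⟩ ⟨b, rfl⟩
          refine ⟨a * b, ?_⟩
          calc a * a * (b * b) = a * (a * b) * b := by group
            _ = a * (b * a) * b := by rw [hcomm a b]
            _ = a * b * (a * b) := by group
        one_mem' := ⟨1, by simp⟩
        inv_mem' := by
          rintro _ ⟨a, rfl⟩
          refine ⟨a⁻¹, by group⟩ }
    have hBne : B ≠ ⊤ := by
      intro h
      let f : E → E := fun b => b * b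
      have hf : Function.Surjective f := by
        intro x
        have h1 : x ∈ B := by rw [h]; trivial
        obtain ⟨b, rfl⟩ := h1
        exact ⟨b, rfl⟩
      have hfi := Finite.injective_iff_surjective.mpr hf
      have h2 : f ⟨z, hzE⟩ = f 1 := by
        apply Subtype.ext
        simp [f, hz2]
      exact hz' (hfi h2)
    obtain ⟨θ₂, hθ₂, hθ₂B⟩ := exists_hom_trivial_on hcomm B hBne
    obtain ⟨c, hc⟩ := IsCyclic.exists_generator (α := E)
    have hθc : θ₂ c ≠ 1 := by
      intro h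
      apply hθ₂
      ext x
      obtain ⟨k, rfl⟩ := Subgroup.mem_zpowers_iff.mp (hc x)
      simp [h]
    have hsqT : ∀ b : E, IsConj z (u₀ * ((b * b : E) : G)) := by
      intro b
      have h1 := hTsq 1 b hT1
      rwa [one_mul] at h1
    -- even exponents
    have hexp : ∀ k : ℤ, θ₂ (c ^ k) ≠ 1 → Odd k := by
      intro k hk
      by_contra hodd
      rw [Int.not_odd_iff_even] at hodd
      obtain ⟨j, rfl⟩ := hodd
      apply hk
      apply hθ₂B
      exact ⟨c ^ j, by rw [zpow_add]⟩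
    have hθa₀ : θ₂ a₀ ≠ 1 := by
      intro h
      obtain ⟨k, hk⟩ := Subgroup.mem_zpowers_iff.mp (hc a₀)
      apply ha₀
      -- `a₀` is a power with an even exponent
      rcases Int.even_or_odd k with ⟨j, hj⟩ | ⟨j, hj⟩
      · have h1 : a₀ = c ^ j * c ^ j := by rw [← hk, hj, zpow_add]
        rw [h1]
        exact hsqT _
      · exfalso
        have h1 : a₀ = c ^ j * c ^ j * c := by
          rw [← hk, hj, zpow_add, zpow_one, two_mul, zpow_add]
        rw [h1, map_mul, hθ₂B (c ^ j * c ^ j) ⟨c ^ j, rfl⟩, one_mul] at h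
        exact hθc h
    have hno : ∀ a : E, θ₂ a ≠ 1 → ¬ IsConj z (u₀ * (a : G)) := by
      intro a ha hT
      obtain ⟨k, hk⟩ := Subgroup.mem_zpowers_iff.mp (hc a)
      obtain ⟨m, hm⟩ := Subgroup.mem_zpowers_iff.mp (hc a₀)
      have hk' : Odd k := hexp k (by rw [hk]; exact ha)
      have hm' : Odd m := hexp m (by rw [hm]; exact hθa₀)
      obtain ⟨j, hj⟩ : Even (m - k) := hm'.sub_odd hk'
      have h1 : a₀ = a * (c ^ j * c ^ j) := by
        rw [← hk, ← hm, ← zpow_add, ← zpow_add]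
        congr 1
        omega
      apply ha₀
      rw [h1]
      exact hTsq a _ hT
    obtain ⟨x, hx1, hxc, hxθ⟩ := hsupp θ₂ hθ₂
    obtain ⟨s, t, hs, ht, hst⟩ := hpairs x hxc
    have hxG : (x : G) ≠ 1 := fun h => hx1 (Subtype.ext h)
    obtain ⟨h1, h2, -, h4⟩ := S.pair hzE hz1 hz2 x.2 hxG hs ht hst
    obtain ⟨a, rfl⟩ := hsu s h1 h2
    have h5 : θ₂ a = 1 := by
      by_contra hne
      exact hno a hne hs
    have h6 : θ₂ (a * x) = 1 := by
      by_contra hne
      apply hno (a * x) hne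
      have h7 : u₀ * ((a * x : E) : G) = t := by
        rw [h4]
        simp only [Subgroup.coe_mul]
        group
      rw [h7]
      exact ht
    rw [map_mul, h5, one_mul] at h6
    exact hxθ h6
  refine ⟨u₀, hu₀N, hu₀E, hu₀2, hinv, fun x hx1 => ?_⟩
  have hxG : (x : G) ≠ 1 := fun h => hx1 (Subtype.ext h)
  let f : E → {p : G × G // IsConj z p.1 ∧ IsConj z p.2 ∧ p.1 * p.2 = x} := fun a =>
    ⟨(u₀ * a, u₀ * ((a * x : E) : G)), hTall a, hTall (a * x), by
      have h1 := hcommu a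
      show u₀ * (a : G) * (u₀ * ((a * x : E) : G)) = x
      simp only [Subgroup.coe_mul]
      calc u₀ * (a : G) * (u₀ * ((a : G) * x)) = (u₀ * a * u₀) * ((a : G) * x) := by group
        _ = (a : G)⁻¹ * ((a : G) * x) := by rw [h1]
        _ = x := by group⟩
  have hf : Function.Bijective f := by
    constructor
    · intro a b hab
      have h1 : u₀ * (a : G) = u₀ * b := congrArg (fun q => q.1.1) hab
      exact Subtype.ext (mul_left_cancel h1)
    · rintro ⟨⟨s, t⟩, hs, ht, hst⟩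
      have hst' : s * t = x := hst
      obtain ⟨h1, h2, -, h4⟩ := S.pair hzE hz1 hz2 x.2 hxG hs ht hst'
      obtain ⟨a, rfl⟩ := hsu s h1 h2
      refine ⟨a, ?_⟩
      apply Subtype.ext
      apply Prod.ext
      · rfl
      · show u₀ * ((a * x : E) : G) = t
        have h4' : t = u₀ * a * x := h4
        rw [h4']
        simp only [Subgroup.coe_mul]
        group
  rw [classProdCount]
  exact (Nat.card_congr (Equiv.ofBijective f hf)).symm

end Inv

end Cfsg.Agent.Lib.Perm7.Core
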