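import Cfsg.Agent.Lib.Perm7.Odd
import Cfsg.Agent.Lib.CharDeep.BrauerDeg.Zz
import Cfsg.Agent.Lib.QuadAct.Basic

/-!
# The case `|E|` odd: the family of the principal block

With the main inequality, the family of the trivial character of `C(P) = P` has exceptional
characters of degree `|E|`.
-/

set_option autoImplicit false
set_option linter.unusedSectionVars false
set_option linter.style.haveILetI false

namespace Cfsg.Agent.Lib.Perm7.Core

open scoped BigOperators ComplexConjugate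
open Cfsg Module Cfsg.Agent.Lib.Char.Induced Cfsg.Agent.Lib.Char.Ortho Cfsg.Agent.Lib.Char.Linear
open Cfsg.Agent.Lib.Char.Basic Cfsg.Agent.Lib.Char.GenLattice Cfsg.Agent.Lib.Char.Complete
open Cfsg.Agent.Lib.Char.IndRep Cfsg.Agent.Lib.Perm7.Exc Cfsg.Agent.Lib.Perm7.Label
open Cfsg.Agent.Lib.Perm7.Frob Cfsg.Agent.Lib.Perm7.Integ
open Cfsg.Agent.Lib.CharDeep.BrauerDeg
open Cfsg.Agent.Lib.ExcP.Gram Cfsg.Agent.Lib.ExcP.Inst
open Cfsg.Agent.Lib.ModRep.ThGram
open Cfsg.Agent.Lib.Char.Degree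

universe u

variable {G : Type u} [Group G] [Fintype G] {p : ℕ} [hp : Fact p.Prime] {P E : Subgroup G} [Fintype P] [Fintype E]
  {u : G} {χp : G → ℂ} [Fintype (Cn P)] [Fintype (DD P p)]

omit [Fintype G] [Fintype P] [Fintype E] [Fintype (Cn P)] [Fintype (DD P p)] in
theorem sum_subgroup_congr {Q R : Subgroup G} (h : Q = R) [iQ : Fintype Q] [iR : Fintype R] (f : G → ℂ) :
    ∑ x : Q, f x = ∑ y : R, f y := by
  subst h
  have h2 : iQ = iR := Subsingleton.elim _ _
  subst h2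
  rfl

theorem nn_of_inner {H : Type u} [Group H] [Fintype H] {a b : H → ℂ} {n : ℕ} (h : classInner a b = n) :
    nn a b = n := by
  rw [nn, h]
  simp

section Mult

variable (S : Sys p P E u χp)
include S

theorem Sys.card_Cn : Nat.card (Cn P) = p := by
  have h : Cn P = P := S.hC
  rw [h, S.hPc]

theorem Sys.mem_P_of_Cn (c : Cn P) : (c : G) ∈ P := by
  have h : Cn P = P := S.hC
  exact (Subgroup.ext_iff.mp h _).mp c.2

/-- The sum of all multiplicities. -/
theorem Sys.inner_sum (f : Cn P → ℂ) :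
    classInner (trv (Cn P) : Cn P → ℂ) f + ∑ d : DD P p, classInner (tw d.1 (trv (Cn P) : Cn P → ℂ)) f =
      conj (f 1) := by
  classical
  have hP := S.hPc
  have hp2 := S.hp2
  have hC := S.card_Cn
  have hp0 : (p : ℂ) ≠ 0 := Nat.cast_ne_zero.mpr hp.out.ne_zero
  simp only [classInner_def, hC, trv_apply, tw]
  have h1 : ∑ d : DD P p, (p : ℂ)⁻¹ * ∑ g : Cn P, ((d.1 g : ℂˣ) : ℂ) * 1 * conj (f g) =
      (p : ℂ)⁻¹ * ∑ g : Cn P, (∑ i : DD P p, ((i.1 g : ℂˣ) : ℂ)) * conj (f g) := by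
    rw [← Finset.mul_sum, Finset.sum_comm]
    congr 1
    refine Finset.sum_congr rfl fun g _ => ?_
    rw [Finset.sum_mul]
    simp
  rw [h1, ← mul_add, ← Finset.sum_add_distrib]
  have h2 : ∀ g : Cn P, g ≠ 1 → (1 : ℂ) * conj (f g) + (∑ i : DD P p, ((i.1 g : ℂˣ) : ℂ)) * conj (f g) = 0 := by
    intro g hg
    rw [sum_DD_apply hP hp2 (S.mem_P_of_Cn g) hg]
    ring
  rw [Finset.sum_eq_single (1 : Cn P) (fun g _ hg => h2 g hg) (by simp)]
  have h3 : ∑ i : DD P p, (((i.1 1 : ℂˣ)) : ℂ) = (p : ℂ) - 1 := by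
    simp only [map_one, Units.val_one, Finset.sum_const, Finset.card_univ, nsmul_eq_mul, mul_one]
    rw [← Nat.card_eq_fintype_card, card_DD hP hp2, Nat.cast_sub hp.out.one_lt.le]
    simp
  rw [h3]
  field_simp
  ring

theorem Sys.nn_sum [Fintype (IrrCharacter (Cn P))] (ξ : IrrCharacter G) :
    nn (trv (Cn P) : Cn P → ℂ) (rs P (ξ : G → ℂ)) + ∑ d : DD P p, nn (tw d.1 (trv (Cn P) : Cn P → ℂ)) (rs P (ξ : G → ℂ)) =
      charDegree (ξ : G → ℂ) := by
  have hξ := isCharacter_of_isIrrCharacter ξ.2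
  have h1 := S.inner_sum (rs P (ξ : G → ℂ))
  rw [← nn_cast (isCharacter_of_isIrrCharacter (trv (Cn P)).2) (isChar_rs hξ)] at h1
  have h2 : ∀ d : DD P p, classInner (tw d.1 (trv (Cn P) : Cn P → ℂ)) (rs P (ξ : G → ℂ)) =
      (nn (tw d.1 (trv (Cn P) : Cn P → ℂ)) (rs P (ξ : G → ℂ)) : ℂ) := fun d =>
    (nn_cast (isCharacter_of_isIrrCharacter (isIrr_tw d.1 (trv (Cn P)).2)) (isChar_rs hξ)).symm
  simp only [h2] at h1
  have h3 : rs P (ξ : G → ℂ) 1 = (charDegree (ξ : G → ℂ) : ℂ) := by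
    show (ξ : G → ℂ) ((1 : Cn P) : G) = _
    rw [OneMemClass.coe_one]
    exact (charDegree_natCast hξ).symm
  rw [h3, Complex.conj_natCast] at h1
  exact_mod_cast h1

/-- A class function equal to one off the identity. -/
theorem Sys.inner_of_val (f : Cn P → ℂ) (hf : ∀ c, c ≠ 1 → f c = 1) (i : Cn P → ℂ) :
    classInner i f = classInner i (fun _ => 1) + (p : ℂ)⁻¹ * i 1 * (conj (f 1) - 1) := by
  classical
  have hC := S.card_Cn
  simp only [classInner_def, hC]
  have h1 : ∀ c : Cn P, i c * conj (f c) = i c * conj ((1 : ℂ)) +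
      (if c = 1 then i 1 * (conj (f 1) - 1) else 0) := by
    intro c
    by_cases hc : c = 1
    · subst hc
      simp only [if_true, map_one]
      ring
    · rw [if_neg hc, hf c hc]
      simp
  simp only [h1, Finset.sum_add_distrib, Finset.sum_ite_eq', Finset.mem_univ, if_true, mul_add, mul_assoc]


theorem Sys.inner_trv_val (f : Cn P → ℂ) (hf : ∀ c, c ≠ 1 → f c = 1) :
    classInner (trv (Cn P) : Cn P → ℂ) f = 1 + (p : ℂ)⁻¹ * (conj (f 1) - 1) := by
  rw [S.inner_of_val f hf]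
  have h1 : classInner (trv (Cn P) : Cn P → ℂ) (fun _ => 1) = 1 := classInner_self_of_isIrr (trv (Cn P)).2
  rw [h1]
  simp

theorem Sys.inner_tw_val (f : Cn P → ℂ) (hf : ∀ c, c ≠ 1 → f c = 1) (d : DD P p) :
    classInner (tw d.1 (trv (Cn P) : Cn P → ℂ)) f = (p : ℂ)⁻¹ * (conj (f 1) - 1) := by
  rw [S.inner_of_val f hf]
  have h1 : classInner (tw d.1 (trv (Cn P) : Cn P → ℂ)) (fun _ => 1) = 0 := by
    apply classInner_eq_zero_of_isIrr_of_ne (isIrr_tw d.1 (trv (Cn P)).2) (trv (Cn P)).2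
    intro h
    apply d.2.2
    ext c
    have h2 := congrFun h c
    simp only [tw, trv_apply, mul_one] at h2
    simpa using h2
  rw [h1]
  simp [tw]

/-- The multiplicities of the trivial character. -/
theorem Sys.nn_trv_trv : nn (trv (Cn P) : Cn P → ℂ) (rs P (trv G : G → ℂ)) = 1 := by
  apply nn_of_inner
  have h1 : classInner (trv (Cn P) : Cn P → ℂ) (fun _ => 1) = 1 := classInner_self_of_isIrr (trv (Cn P)).2
  rw [Nat.cast_one]
  exact h1

theorem Sys.nn_tw_trv (d : DD P p) : nn (tw d.1 (trv (Cn P) : Cn P → ℂ)) (rs P (trv G : G → ℂ)) = 0 := by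
  apply nn_of_inner
  have h1 : classInner (tw d.1 (trv (Cn P) : Cn P → ℂ)) (fun _ => 1) = 0 := by
    apply classInner_eq_zero_of_isIrr_of_ne (isIrr_tw d.1 (trv (Cn P)).2) (trv (Cn P)).2
    intro h
    apply d.2.2
    ext c
    have h2 := congrFun h c
    simp only [tw, trv_apply, mul_one] at h2
    simpa using h2
  rw [Nat.cast_zero]
  exact h1

/-- The multiplicities of the characters `rst`. -/
theorem Sys.nn_trv_rst (θ : E →* ℂˣ) : nn (trv (Cn P) : Cn P → ℂ) (rs P (rst χp θ)) = 2 := by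
  apply nn_of_inner
  have hp0 : (p : ℂ) ≠ 0 := Nat.cast_ne_zero.mpr hp.out.ne_zero
  have h1 : rs P (rst χp θ) 1 = (p : ℂ) + 1 := by
    show rst χp θ ((1 : Cn P) : G) = _
    rw [OneMemClass.coe_one, S.rst_one]
  rw [S.inner_trv_val (rs P (rst χp θ)) (fun c hc => S.rst_P θ (S.mem_P_of_Cn c) (by simpa using hc)), h1]
  simp only [map_add, Complex.conj_natCast, map_one]
  field_simp
  push_cast
  ring

theorem Sys.nn_tw_rst (θ : E →* ℂˣ) (d : DD P p) : nn (tw d.1 (trv (Cn P) : Cn P → ℂ)) (rs P (rst χp θ)) = 1 := by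
  apply nn_of_inner
  have hp0 : (p : ℂ) ≠ 0 := Nat.cast_ne_zero.mpr hp.out.ne_zero
  have h1 : rs P (rst χp θ) 1 = (p : ℂ) + 1 := by
    show rst χp θ ((1 : Cn P) : G) = _
    rw [OneMemClass.coe_one, S.rst_one]
  rw [S.inner_tw_val (rs P (rst χp θ)) (fun c hc => S.rst_P θ (S.mem_P_of_Cn c) (by simpa using hc)) d, h1]
  simp only [map_add, Complex.conj_natCast, map_one]
  field_simp
  push_cast
  ring

/-- The relation with the dimension of the fixed space. -/
theorem Sys.nn_trv_eq {n : ℕ} (ρ : Representation ℂ G (Fin n → ℂ)) :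
    nn (trv (Cn P) : Cn P → ℂ) (rs P ρ.character) = fixDim ρ P := by
  have hξ : IsCharacter G ρ.character := ⟨n, ρ, rfl⟩
  have h1 := nn_cast (isCharacter_of_isIrrCharacter (trv (Cn P)).2) (isChar_rs (P := P) hξ)
  have h2 := fixDim_eq ρ P
  have h3 := classInner_conj (trv (Cn P) : Cn P → ℂ) (rs P ρ.character)
  rw [← h1, Complex.conj_natCast] at h3
  have h4 : classInner (rs P ρ.character) (trv (Cn P) : Cn P → ℂ) = (fixDim ρ P : ℂ) := by
    rw [h2, classInner_def, S.card_Cn, ← S.card_P]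
    congr 1
    rw [← sum_subgroup_congr (show Cn P = P from S.hC) (fun g => ρ.character g)]
    simp [rs]
  rw [h4] at h3
  exact_mod_cast h3

end Mult

section Fam

variable [Fintype (Nn P)] [Fintype (IrrCharacter G)] [Fintype (IrrCharacter (Cn P))] {M : Ideal AlgInt}

theorem card_filter_nu (F : Fam M P p (trv (Cn P))) (d : DD P p) :
    open scoped Classical in (Finset.univ.filter (fun d' => F.ν d' = F.ν d)).card = F.e := by
  classical
  rw [← F.hcls d, Nat.card_eq_fintype_card, Fintype.card_subtype]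
  congr 1
  ext a
  simp [F.hν]

theorem ws_sum (F : Fam M P p (trv (Cn P))) (d : DD P p) :
    ∑ χ ∈ F.X, F.εX χ * (charDegree (χ : G → ℂ) : ℤ) = F.ε * (charDegree (F.ν d : G → ℂ) : ℤ) := by
  have h1 := F.hval d 1
  rw [Ws_one] at h1
  have h2 : ∀ χ : IrrCharacter G, (χ : G → ℂ) 1 = ((charDegree (χ : G → ℂ) : ℤ) : ℂ) := fun χ => by
    rw [Int.cast_natCast]
    exact (charDegree_natCast (isCharacter_of_isIrrCharacter χ.2)).symm
  simp only [h2] at h1
  push_cast at h1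
  have h3 : ((∑ χ ∈ F.X, F.εX χ * (charDegree (χ : G → ℂ) : ℤ) : ℤ) : ℂ) =
      ((F.ε * (charDegree (F.ν d : G → ℂ) : ℤ) : ℤ) : ℂ) := by
    push_cast
    linear_combination h1
  exact_mod_cast h3

variable (S : Sys p P E u χp)
include S

theorem Sys.card_Nn : Nat.card (Nn P) = Nat.card E * Nat.card (Cn P) := by
  have h := Cfsg.Agent.Lib.QuadAct.Basic.card_sup_mul_card_inf_of_le_normalizer E P S.E_le_B
  have h2 : E ⊓ P = ⊥ := by rw [inf_comm]; exact S.hPE
  rw [h2, Subgroup.card_bot, mul_one] at h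
  rw [S.card_Cn, ← S.hPc, ← h, sup_comm, ← S.hB]

theorem Sys.fam_e (F : Fam M P p (trv (Cn P))) (d : DD P p) : F.e = Nat.card E := by
  have hN : Nat.card (stabN P (trv (Cn P) : Cn P → ℂ)) = Nat.card E * Nat.card (Cn P) := by
    rw [← S.card_Nn]
    have h : stabN P (trv (Cn P) : Cn P → ℂ) = ⊤ := by
      ext y
      simp only [Subgroup.mem_top, iff_true]
      exact mem_stabN_iff.mpr (cjt_trv y)
    rw [h, Subgroup.card_top]
  rw [← F.hcls d]
  exact card_class S.hPc S.hp2 (trv (Cn P)).2 hN d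

/-- The degree formula. -/
theorem Sys.deg_eq (F : Fam M P p (trv (Cn P))) (ξ : IrrCharacter G) :
    open scoped Classical in
    (charDegree (ξ : G → ℂ) : ℤ) = p * nn (trv (Cn P) : Cn P → ℂ) (rs P (ξ : G → ℂ)) -
      (p - 1) * (if ξ ∈ F.X then F.εX ξ else 0) +
        F.ε * (Finset.univ.filter (fun d => F.ν d = ξ)).card := by
  classical
  have h1 := S.nn_sum ξ
  have hcard : ((Fintype.card (DD P p) : ℕ) : ℤ) = (p : ℤ) - 1 := by
    rw [← Nat.card_eq_fintype_card, card_DD S.hPc S.hp2, Nat.cast_sub hp.out.one_lt.le]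
    simp
  have h2 : ((∑ d : DD P p, nn (tw d.1 (trv (Cn P) : Cn P → ℂ)) (rs P (ξ : G → ℂ)) : ℕ) : ℤ) =
      (p - 1) * ((nn (trv (Cn P) : Cn P → ℂ) (rs P (ξ : G → ℂ)) : ℤ) - (if ξ ∈ F.X then F.εX ξ else 0)) +
        F.ε * (Finset.univ.filter (fun d => F.ν d = ξ)).card := by
    push_cast
    have h3 : ∀ d : DD P p, (nn (tw d.1 (trv (Cn P) : Cn P → ℂ)) (rs P (ξ : G → ℂ)) : ℤ) =
        ((nn (trv (Cn P) : Cn P → ℂ) (rs P (ξ : G → ℂ)) : ℤ) - (if ξ ∈ F.X then F.εX ξ else 0)) +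
          (if F.ν d = ξ then F.ε else 0) := by
      intro d
      have h4 := mult_rel F d ξ
      convert h4 using 2
      ring
    simp only [h3, Finset.sum_add_distrib, Finset.sum_const, Finset.card_univ, nsmul_eq_mul, hcard]
    congr 1
    rw [← Finset.sum_filter, Finset.sum_const, nsmul_eq_mul, mul_comm]
  have h6 : (charDegree (ξ : G → ℂ) : ℤ) = (nn (trv (Cn P) : Cn P → ℂ) (rs P (ξ : G → ℂ)) : ℤ) +
      ((∑ d : DD P p, nn (tw d.1 (trv (Cn P) : Cn P → ℂ)) (rs P (ξ : G → ℂ)) : ℕ) : ℤ) := by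
    rw [← h1]
    push_cast
    ring
  rw [h6, h2]
  ring


theorem Sys.deg_X (F : Fam M P p (trv (Cn P))) {χ : IrrCharacter G} (hχ : χ ∈ F.X) :
    (charDegree (χ : G → ℂ) : ℤ) = p * nn (trv (Cn P) : Cn P → ℂ) (rs P (χ : G → ℂ)) - (p - 1) * F.εX χ := by
  classical
  have h1 := S.deg_eq F χ
  have h2 : (Finset.univ.filter (fun d => F.ν d = χ)) = ∅ := by
    apply Finset.filter_eq_empty_iff.mpr
    intro d _ hd
    exact Finset.disjoint_left.mp F.hdisj hχ ((F.hY χ).mpr ⟨d, hd⟩)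
  rw [if_pos hχ, h2] at h1
  simpa using h1

theorem Sys.deg_nu (F : Fam M P p (trv (Cn P))) (d : DD P p) :
    (charDegree (F.ν d : G → ℂ) : ℤ) = p * nn (trv (Cn P) : Cn P → ℂ) (rs P (F.ν d : G → ℂ)) + F.ε * F.e := by
  classical
  have h1 := S.deg_eq F (F.ν d)
  have hX : F.ν d ∉ F.X := fun h => Finset.disjoint_left.mp F.hdisj h ((F.hY _).mpr ⟨d, rfl⟩)
  rw [if_neg hX, card_filter_nu F d] at h1
  simpa using h1

section Main

variable (hodd : Odd (Nat.card E)) (hu2 : u * u = 1)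
include hodd hu2

theorem Sys.odd_bound (ξ : IrrCharacter G) (h1 : ξ ≠ trv G) (h2 : ∀ θ : E →* ℂˣ, θ ≠ 1 → (ξ : G → ℂ) ≠ rst χp θ) :
    p * nn (trv (Cn P) : Cn P → ℂ) (rs P (ξ : G → ℂ)) ≤ charDegree (ξ : G → ℂ) := by
  obtain ⟨n, ρ, hρ, hχ⟩ := ξ.2
  have h3 := S.odd_ineq hodd hu2 ρ hρ (fun h => h1 (Subtype.ext (hχ.symm.trans h)))
    (fun θ hθ h => h2 θ hθ (hχ.symm.trans h))
  rw [← hχ, S.nn_trv_eq ρ, charDegree_character]
  simpa using h3

/-- The classes of the family are not the whole of `DD`. -/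
theorem Sys.not_all (F : Fam M P p (trv (Cn P))) (d : DD P p) (h : ∀ d', F.ν d' = F.ν d) : False := by
  classical
  have h1 := card_filter_nu F d
  rw [Finset.filter_true_of_mem (fun d' _ => h d'), Finset.card_univ, ← Nat.card_eq_fintype_card,
    card_DD S.hPc S.hp2, S.fam_e F d] at h1
  have hpodd : p = 2 ∨ Odd p := hp.out.eq_two_or_odd'
  rcases hpodd with h2 | h2
  · rw [h2] at h1
    have h3 : Nat.card E = 1 := h1.symm
    exact S.hE1 (Subgroup.card_eq_one.mp h3)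
  · obtain ⟨k, hk⟩ := h2
    obtain ⟨l, hl⟩ := hodd
    omega

theorem Sys.nu_not_exc (F : Fam M P p (trv (Cn P))) (d : DD P p) :
    F.ν d ≠ trv G ∧ ∀ θ : E →* ℂˣ, θ ≠ 1 → (F.ν d : G → ℂ) ≠ rst χp θ := by
  classical
  have hX : F.ν d ∉ F.X := fun h => Finset.disjoint_left.mp F.hdisj h ((F.hY _).mpr ⟨d, rfl⟩)
  constructor
  · intro h
    apply S.not_all hodd hu2 F d
    intro d'
    have h1 := mult_rel F d' (F.ν d)
    rw [if_neg hX, h, S.nn_trv_trv, S.nn_tw_trv] at h1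
    by_contra hne
    rw [h] at hne
    rw [if_neg hne] at h1
    simp at h1
  · intro θ _ h
    apply S.not_all hodd hu2 F d
    intro d'
    have h1 := mult_rel F d' (F.ν d)
    rw [if_neg hX, h, S.nn_trv_rst, S.nn_tw_rst] at h1
    by_contra hne
    rw [if_neg hne] at h1
    simp at h1

/-- The main count. -/
theorem Sys.odd_nu (F : Fam M P p (trv (Cn P))) (d : DD P p) :
    charDegree (F.ν d : G → ℂ) = Nat.card E ∧ nn (trv (Cn P) : Cn P → ℂ) (rs P (F.ν d : G → ℂ)) = 0 ∧ F.ε = 1 := by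
  classical
  obtain ⟨hν1, hν2⟩ := S.nu_not_exc hodd hu2 F d
  have hb := S.odd_bound hodd hu2 (F.ν d) hν1 hν2
  have hdν := S.deg_nu F d
  have he := S.fam_e F d
  have hepos : 0 < Nat.card E := Nat.card_pos
  have hε1 : F.ε = 1 := by
    rcases F.hε with h | h
    · exact h
    · exfalso
      rw [h, he] at hdν
      zify at hb
      have : (0:ℤ) < Nat.card E := by exact_mod_cast hepos
      linarith
  -- the exceptional set
  haveI := Cfsg.Agent.Lib.ModRep.AbFrob.finite_hom S.hT.hcomm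
  letI : Fintype (E →* ℂˣ) := Fintype.ofFinite _
  let φ : (E →* ℂˣ) → IrrCharacter G := fun θ =>
    if h : θ = 1 then trv G else ⟨rst χp θ, S.isIrr_rst hodd hu2 h⟩
  let Ex : Finset (IrrCharacter G) := Finset.univ.image φ
  let a : IrrCharacter G → ℕ := fun ξ => nn (trv (Cn P) : Cn P → ℂ) (rs P (ξ : G → ℂ))
  have hEx : ∑ ξ ∈ Ex, a ξ ≤ Nat.card E := by
    have h1 : Nat.card E = (Finset.univ : Finset (E →* ℂˣ)).card := by
      rw [Finset.card_univ, ← Nat.card_eq_fintype_card, Cfsg.Agent.Lib.ModRep.AbFrob.card_hom S.hT.hcomm]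
    rw [h1, Finset.card_eq_sum_card_image φ]
    apply Finset.sum_le_sum
    intro ξ hξ
    obtain ⟨θ, -, rfl⟩ := Finset.mem_image.mp hξ
    by_cases hθ : θ = 1
    · have h2 : φ θ = trv G := dif_pos hθ
      have h3 : a (φ θ) = 1 := by
        show nn _ _ = 1
        rw [h2]
        exact S.nn_trv_trv
      rw [h3]
      exact Finset.card_pos.mpr ⟨θ, by simp⟩
    · have h2 : φ θ = ⟨rst χp θ, S.isIrr_rst hodd hu2 hθ⟩ := dif_neg hθ
      have h3 : a (φ θ) = 2 := by
        show nn _ _ = 2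
        rw [h2]
        exact S.nn_trv_rst θ
      have hinv : θ⁻¹ ≠ 1 := by
        intro h
        apply hθ
        ext x
        have h5 := DFunLike.congr_fun h x
        simpa using h5
      have h4 : φ θ⁻¹ = φ θ := by
        have h5 : φ θ⁻¹ = ⟨rst χp θ⁻¹, S.isIrr_rst hodd hu2 hinv⟩ := dif_neg hinv
        rw [h5, h2]
        apply Subtype.ext
        show rst χp θ⁻¹ = rst χp θ
        rw [← S.tu_eq_inv hodd hu2, S.rst_tu]
      rw [h3]
      have h6 : ({θ, θ⁻¹} : Finset (E →* ℂˣ)) ⊆ Finset.univ.filter (fun x => φ x = φ θ) := by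
        intro x hx
        simp only [Finset.mem_insert, Finset.mem_singleton] at hx
        rcases hx with rfl | rfl
        · simp
        · simp [h4]
      have h7 := Finset.card_le_card h6
      rwa [Finset.card_pair (S.ne_inv hodd hu2 hθ)] at h7
  -- the nonexceptional members of `X`
  have hneg : ∀ χ ∈ F.X, χ ∉ Ex → F.εX χ = -1 := by
    intro χ hχ hn
    rcases F.hεX χ hχ with h | h
    · exfalso
      have h1 : χ ≠ trv G := by
        intro h2
        apply hn
        refine Finset.mem_image.mpr ⟨1, Finset.mem_univ _, ?_⟩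
        rw [h2]
        exact dif_pos rfl
      have h2 : ∀ θ : E →* ℂˣ, θ ≠ 1 → (χ : G → ℂ) ≠ rst χp θ := by
        intro θ hθ h3
        apply hn
        refine Finset.mem_image.mpr ⟨θ, Finset.mem_univ _, ?_⟩
        have h4 : φ θ = ⟨rst χp θ, S.isIrr_rst hodd hu2 hθ⟩ := dif_neg hθ
        rw [h4]
        exact Subtype.ext h3.symm
      have h3 := S.odd_bound hodd hu2 χ h1 h2
      have h4 := S.deg_X F hχ
      rw [h] at h4
      zify at h3
      have hp1 : (1 : ℤ) < p := by exact_mod_cast hp.out.one_lt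
      linarith
    · exact h
  have hsum := ws_sum F d
  have hsq : ∀ χ ∈ F.X, F.εX χ * (charDegree (χ : G → ℂ) : ℤ) = p * (F.εX χ * (a χ : ℤ)) - (p - 1) := by
    intro χ hχ
    rw [S.deg_X F hχ]
    rcases F.hεX χ hχ with h | h <;> rw [h] <;> ring
  rw [Finset.sum_congr rfl hsq, Finset.sum_sub_distrib, ← Finset.mul_sum, Finset.sum_const, F.hXe, he,
    hdν, hε1, he] at hsum
  simp only [nsmul_eq_mul, one_mul] at hsum
  have hp0 : (p : ℤ) ≠ 0 := by exact_mod_cast hp.out.ne_zero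
  have h5 : ∑ χ ∈ F.X, F.εX χ * (a χ : ℤ) = (Nat.card E : ℤ) + (a (F.ν d) : ℤ) := by
    apply mul_left_cancel₀ hp0
    show (p : ℤ) * _ = _
    have h6 : ((nn (trv (Cn P) : Cn P → ℂ) (rs P (F.ν d : G → ℂ)) : ℕ) : ℤ) = a (F.ν d) := rfl
    rw [h6] at hsum
    linarith
  have h7 : ∑ χ ∈ F.X, F.εX χ * (a χ : ℤ) ≤ ∑ ξ ∈ Ex, (a ξ : ℤ) := by
    calc _ ≤ ∑ χ ∈ F.X.filter (· ∈ Ex), (a χ : ℤ) := by
          rw [Finset.sum_filter]
          apply Finset.sum_le_sum
          intro χ hχ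
          split_ifs with h8
          · rcases F.hεX χ hχ with h | h <;> rw [h]
            · simp
            · have : (0 : ℤ) ≤ a χ := by positivity
              linarith
          · rw [hneg χ hχ h8]
            have : (0 : ℤ) ≤ a χ := by positivity
            linarith
      _ ≤ _ := by
          apply Finset.sum_le_sum_of_subset_of_nonneg
          · intro χ hχ
            exact (Finset.mem_filter.mp hχ).2
          · intros
            positivity
  have h8 : ∑ ξ ∈ Ex, (a ξ : ℤ) ≤ Nat.card E := by exact_mod_cast hEx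
  have h9 : (a (F.ν d) : ℤ) = 0 := by
    have : (0 : ℤ) ≤ a (F.ν d) := by positivity
    linarith
  have h10 : a (F.ν d) = 0 := by exact_mod_cast h9
  refine ⟨?_, h10, hε1⟩
  have h11 : (charDegree (F.ν d : G → ℂ) : ℤ) = Nat.card E := by
    rw [S.deg_nu F d, hε1, he]
    have h12 : ((nn (trv (Cn P) : Cn P → ℂ) (rs P (F.ν d : G → ℂ)) : ℕ) : ℤ) = a (F.ν d) := rfl
    rw [h12, h9]
    simp
  exact_mod_cast h11

end Main

end Fam

end Cfsg.Agent.Lib.Perm7.Core
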