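import Cfsg.Agent.Lib.Perm7.Even1
import Cfsg.Agent.Lib.Perm7.OddFam

/-!
# The case `|E|` even: the characters `rst θ` for `θ` fixed by `u`
-/

set_option autoImplicit false
set_option linter.unusedSectionVars false
set_option linter.style.haveILetI false

namespace Cfsg.Agent.Lib.Perm7.Core

open scoped BigOperators ComplexConjugate
open Cfsg Module Cfsg.Agent.Lib.Char.Induced Cfsg.Agent.Lib.Char.Ortho Cfsg.Agent.Lib.Char.Linear
open Cfsg.Agent.Lib.Char.Basic Cfsg.Agent.Lib.Char.GenLattice Cfsg.Agent.Lib.Char.Complete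
open Cfsg.Agent.Lib.Char.IndRep Cfsg.Agent.Lib.Perm7.Exc Cfsg.Agent.Lib.Perm7.Label
open Cfsg.Agent.Lib.Perm7.Frob Cfsg.Agent.Lib.Perm7.Integ
open Cfsg.Agent.Lib.Char.Degree
open Cfsg.Agent.Lib.Char.ClassProd

universe u

variable {G : Type u} [Group G] [Fintype G] {p : ℕ} [hp : Fact p.Prime] {P E : Subgroup G} [Fintype P] [Fintype E]
  {u : G} {χp : G → ℂ}

omit [Fintype P] [Fintype E] hp in
/-- An orthogonality statement in the lattice of generalized characters. -/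
theorem orth_pair {Ψ ξ₁ ξ₂ : G → ℂ} {a₁ a₂ x y N : ℤ} {D₁ D₂ D : ℕ} (hξ₁ : IsIrrCharacter G ξ₁)
    (hξ₂ : IsIrrCharacter G ξ₂) (hne : ξ₁ ≠ ξ₂) (ha₁ : a₁ = 1 ∨ a₁ = -1) (ha₂ : a₂ = 1 ∨ a₂ = -1)
    (hx : classInner Ψ ξ₁ = x) (hy : classInner Ψ ξ₂ = y) (hN : classInner Ψ Ψ = N) (hN2 : N ≤ 2)
    (h0 : a₁ * x + a₂ * y = 0) (hΨ1 : Ψ 1 = D) (hdeg : a₁ * D₁ + a₂ * D₂ = D)
    (hD₁ : ξ₁ 1 = D₁) (hD₂ : ξ₂ 1 = D₂) (hD₁pos : 0 < D₁) (hD₂pos : 0 < D₂) : x = 0 ∧ y = 0 := by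
  classical
  have hx' : classInner ξ₁ Ψ = x := by
    rw [← classInner_conj, hx]
    simp
  have hy' : classInner ξ₂ Ψ = y := by
    rw [← classInner_conj, hy]
    simp
  have h11 := classInner_self_of_isIrr hξ₁
  have h22 := classInner_self_of_isIrr hξ₂
  have h12 := classInner_eq_zero_of_isIrr_of_ne hξ₁ hξ₂ hne
  have h21 := classInner_eq_zero_of_isIrr_of_ne hξ₂ hξ₁ hne.symm
  let Ψ' : G → ℂ := Ψ - (x : ℂ) • ξ₁ - (y : ℂ) • ξ₂
  have hnorm : classInner Ψ' Ψ' = ((N - x ^ 2 - y ^ 2 : ℤ) : ℂ) := by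
    simp only [Ψ', classInner_sub_left, classInner_sub_right, classInner_smul_left, classInner_smul_right, hx, hy, hN,
      hx', hy', h11, h22, h12, h21]
    simp only [map_intCast]
    push_cast
    ring
  have hnn : 0 ≤ N - x ^ 2 - y ^ 2 := by
    have h1 := classInner_self_re_nonneg Ψ'
    rw [hnorm, Complex.intCast_re] at h1
    exact_mod_cast h1
  have hrel : x = y ∨ x = -y := by
    rcases ha₁ with rfl | rfl <;> rcases ha₂ with rfl | rfl <;> omega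
  by_contra hcon
  have hx0 : x ≠ 0 ∧ y ≠ 0 := by
    rcases hrel with h | h <;> constructor <;> intro h1 <;> apply hcon <;> constructor <;> omega
  have hx1 : 1 ≤ x ^ 2 := by
    have := sq_nonneg x
    have h2 : x ^ 2 ≠ 0 := pow_ne_zero _ hx0.1
    omega
  have hy1 : 1 ≤ y ^ 2 := by
    have := sq_nonneg y
    have h2 : y ^ 2 ≠ 0 := pow_ne_zero _ hx0.2
    omega
  have hzero : N - x ^ 2 - y ^ 2 = 0 := by omega
  have hΨ' : Ψ' = 0 := by
    rw [← classInner_self_eq_zero_iff, hnorm, hzero]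
    simp
  have hx2 : x ^ 2 = 1 := by omega
  have hy2 : y ^ 2 = 1 := by omega
  have hval : (D : ℤ) = x * D₁ + y * D₂ := by
    have h1 := congrFun hΨ' 1
    simp only [Ψ', Pi.sub_apply, Pi.smul_apply, smul_eq_mul, hΨ1, hD₁, hD₂, Pi.zero_apply] at h1
    have h2 : ((D : ℤ) : ℂ) = ((x * D₁ + y * D₂ : ℤ) : ℂ) := by
      push_cast
      linear_combination h1
    exact_mod_cast h2
  have hxv : x = 1 ∨ x = -1 := by
    have : (x - 1) * (x + 1) = 0 := by nlinarith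
    rcases mul_eq_zero.mp this with h | h
    · left; omega
    · right; omega
  have hyv : y = 1 ∨ y = -1 := by
    have : (y - 1) * (y + 1) = 0 := by nlinarith
    rcases mul_eq_zero.mp this with h | h
    · left; omega
    · right; omega
  rcases ha₁ with rfl | rfl <;> rcases ha₂ with rfl | rfl <;> rcases hxv with rfl | rfl <;>
    rcases hyv with rfl | rfl <;> omega

section Fixed

variable (S : Sys p P E u χp)
include S

theorem Sys.isIrr_rst_of_ne {θ : E →* ℂˣ} (hθ : θ ≠ 1) (hne : θ ≠ tu S.hT θ) : IsIrrCharacter G (rst χp θ) := by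
  classical
  have h1 := S.inner_rst θ θ hθ hθ
  rw [if_pos rfl, if_neg hne, add_zero] at h1
  rcases norm_one (S.isGen_rst θ) h1 with h2 | h2
  · exact h2
  · exfalso
    obtain ⟨n, hn, hn1⟩ := exists_pos_deg_of_isIrr h2
    rw [Pi.neg_apply, S.rst_one] at hn1
    have h3 : ((n : ℂ)).re = -((p : ℂ) + 1).re := by rw [← hn1]; simp
    simp at h3
    have h4 : (0 : ℝ) ≤ n := Nat.cast_nonneg n
    have h5 : (0 : ℝ) ≤ p := Nat.cast_nonneg p
    linarith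

/-- Fourier analysis on `E`: a class function with the given inner products with the `gam`. -/
theorem Sys.val_of_inner {ξ : G → ℂ} (hξ : IsClassFunction G ξ) {θ : E →* ℂˣ} (hθ : θ ≠ 1) {a : ℤ}
    (h : ∀ θ' : E →* ℂˣ, θ' ≠ 1 → classInner (gam θ') ξ = if θ' = θ then (a : ℂ) else 0) {x : E} (hx : x ≠ 1) :
    ξ x = (a : ℂ) * ((θ x : ℂˣ) : ℂ) := by
  classical
  have hcomm := S.hT.hcomm
  haveI := Cfsg.Agent.Lib.ModRep.AbFrob.finite_hom hcomm
  letI : Fintype (E →* ℂˣ) := Fintype.ofFinite _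
  let f : E → ℂ := fun y => ξ y
  have he : (Nat.card E : ℂ) ≠ 0 := Nat.cast_ne_zero.mpr Nat.card_pos.ne'
  let m : ℂ := classInner (lin (1 : E →* ℂˣ)) f
  have hc : ∀ θ' : E →* ℂˣ, classInner (lin θ') f = m + if θ' = θ then (a : ℂ) else 0 := by
    intro θ'
    by_cases h1 : θ' = 1
    · subst h1
      rw [if_neg (Ne.symm hθ), add_zero]
    · have h2 := h θ' h1
      rw [inner_gam θ' hξ, ff_eq, classInner_sub_left] at h2
      rw [← h2]
      ring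
  -- Fourier inversion
  have hF : ∑ θ' : E →* ℂˣ, classInner (lin θ') f * tb θ' x = conj (f x) := by
    have h1 : ∀ θ' : E →* ℂˣ, classInner (lin θ') f * tb θ' x =
        (Nat.card E : ℂ)⁻¹ * ∑ y : E, ((θ' (y * x⁻¹) : ℂˣ) : ℂ) * conj (f y) := by
      intro θ'
      rw [classInner_def, mul_assoc, Finset.sum_mul]
      congr 1
      refine Finset.sum_congr rfl fun y _ => ?_
      have h2 : ((θ' (y * x⁻¹) : ℂˣ) : ℂ) = lin θ' y * tb θ' x := by
        simp [tb, map_mul, lin]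
      rw [h2]
      ring
    simp only [h1]
    rw [← Finset.mul_sum, Finset.sum_comm]
    have h2 : ∀ y : E, ∑ θ' : E →* ℂˣ, ((θ' (y * x⁻¹) : ℂˣ) : ℂ) * conj (f y) =
        (if y = x then (Nat.card E : ℂ) else 0) * conj (f y) := by
      intro y
      rw [← Finset.sum_mul, Cfsg.Agent.Lib.ModRep.AbFrob.sum_hom hcomm (y * x⁻¹)]
      congr 1
      by_cases h3 : y = x
      · rw [if_pos h3, if_pos (by rw [h3]; simp)]
      · rw [if_neg h3, if_neg]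
        intro h4
        exact h3 (mul_inv_eq_one.mp h4)
    simp only [h2]
    rw [Finset.sum_eq_single x]
    · rw [if_pos rfl, inv_mul_cancel_left₀ he]
    · intro y _ hy
      rw [if_neg hy, zero_mul]
    · simp
  have hsum0 : ∑ θ' : E →* ℂˣ, tb θ' x = 0 := by
    have h1 := Cfsg.Agent.Lib.ModRep.AbFrob.sum_hom hcomm x⁻¹
    rw [if_neg (by simpa using hx)] at h1
    rw [← h1]
    refine Finset.sum_congr rfl fun θ' _ => ?_
    simp [tb]
  simp only [hc, add_mul] at hF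
  rw [Finset.sum_add_distrib, ← Finset.mul_sum, hsum0, mul_zero, zero_add] at hF
  rw [Finset.sum_eq_single θ] at hF
  · rw [if_pos rfl, ← conj_val] at hF
    have h1 := congrArg conj hF
    rw [Complex.conj_conj, map_mul, Complex.conj_conj, map_intCast] at h1
    exact h1.symm
  · intro θ' _ hθ'
    rw [if_neg hθ', zero_mul]
  · simp

/-- The decomposition of `rst θ` for `θ` fixed by `u`. -/
theorem Sys.fixed_dec {θ : E →* ℂˣ} (hθ : θ ≠ 1) (hfix : tu S.hT θ = θ) :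
    ∃ (ξ₁ ξ₂ : G → ℂ) (a₁ a₂ : ℤ) (D₁ D₂ : ℕ), IsIrrCharacter G ξ₁ ∧ IsIrrCharacter G ξ₂ ∧ ξ₁ ≠ ξ₂ ∧
      (a₁ = 1 ∨ a₁ = -1) ∧ (a₂ = 1 ∨ a₂ = -1) ∧ ξ₁ 1 = D₁ ∧ ξ₂ 1 = D₂ ∧ 2 ≤ D₁ ∧ 2 ≤ D₂ ∧
      rst χp θ = (a₁ : ℂ) • ξ₁ + (a₂ : ℂ) • ξ₂ ∧ a₁ * D₁ + a₂ * D₂ = p + 1 ∧
      (∀ x : E, x ≠ 1 → ξ₁ x = (a₁ : ℂ) * ((θ x : ℂˣ) : ℂ) ∧ ξ₂ x = (a₂ : ℂ) * ((θ x : ℂˣ) : ℂ)) := by
  classical
  have h1 := S.inner_rst θ θ hθ hθ
  rw [if_pos rfl, if_pos hfix.symm] at h1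
  obtain ⟨ξ₁, ξ₂, a₁, a₂, hξ₁, hξ₂, hne, ha₁, ha₂, hdec⟩ := norm_two (S.isGen_rst θ) (by rw [h1]; norm_num)
  have hdec' : rst χp θ = (a₁ : ℂ) • ξ₁ + (a₂ : ℂ) • ξ₂ := by
    rw [hdec]
    funext g
    simp
  have h11 := classInner_self_of_isIrr hξ₁
  have h22 := classInner_self_of_isIrr hξ₂
  have h12 := classInner_eq_zero_of_isIrr_of_ne hξ₁ hξ₂ hne
  have h21 := classInner_eq_zero_of_isIrr_of_ne hξ₂ hξ₁ hne.symm
  -- multiplicities
  have hr₁ : classInner (rst χp θ) ξ₁ = (a₁ : ℂ) := by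
    rw [hdec', classInner_add_left, classInner_smul_left, classInner_smul_left, h11, h21]
    ring
  have hr₂ : classInner (rst χp θ) ξ₂ = (a₂ : ℂ) := by
    rw [hdec', classInner_add_left, classInner_smul_left, classInner_smul_left, h22, h12]
    ring
  have ha₁0 : (a₁ : ℂ) ≠ 0 := by
    rcases ha₁ with rfl | rfl <;> norm_num
  have ha₂0 : (a₂ : ℂ) ≠ 0 := by
    rcases ha₂ with rfl | rfl <;> norm_num
  -- not the trivial character, nor `χp`
  have hone : IsIrrCharacter G (fun _ : G => (1 : ℂ)) := by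
    simpa using isIrrCharacter_of_hom (1 : G →* ℂˣ)
  have hn1 : ∀ {ξ : G → ℂ} {a : ℤ}, (a : ℂ) ≠ 0 → classInner (rst χp θ) ξ = (a : ℂ) → ξ ≠ fun _ => 1 := by
    intro ξ a ha hr h
    rw [h, S.inner_rst_one hθ] at hr
    exact ha hr.symm
  have hn2 : ∀ {ξ : G → ℂ} {a : ℤ}, (a : ℂ) ≠ 0 → classInner (rst χp θ) ξ = (a : ℂ) → ξ ≠ χp := by
    intro ξ a ha hr h
    rw [h, S.inner_rst_χ hθ] at hr
    exact ha hr.symm
  have hdeg2 : ∀ {ξ : G → ℂ}, IsIrrCharacter G ξ → ξ ≠ (fun _ => 1) → ∃ D : ℕ, ξ 1 = D ∧ 2 ≤ D := by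
    intro ξ hξ hξ1
    refine ⟨charDegree ξ, (charDegree_natCast (isCharacter_of_isIrrCharacter hξ)).symm, ?_⟩
    by_contra hlt
    have h2 := charDegree_pos hξ
    have h3 : charDegree ξ = 1 := by omega
    have h4 : ξ 1 = 1 := by
      rw [← charDegree_natCast (isCharacter_of_isIrrCharacter hξ), h3]
      simp
    obtain ⟨l, hl⟩ := exists_hom_of_deg_one (isCharacter_of_isIrrCharacter hξ) h4
    rw [S.hperf l] at hl
    apply hξ1
    rw [hl]
    funext g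
    simp
  obtain ⟨D₁, hD₁, hD₁2⟩ := hdeg2 hξ₁ (hn1 ha₁0 hr₁)
  obtain ⟨D₂, hD₂, hD₂2⟩ := hdeg2 hξ₂ (hn1 ha₂0 hr₂)
  have hdegZ : a₁ * D₁ + a₂ * D₂ = p + 1 := by
    have h2 := congrFun hdec' 1
    rw [S.rst_one] at h2
    simp only [Pi.add_apply, Pi.smul_apply, smul_eq_mul, hD₁, hD₂] at h2
    have h3 : ((a₁ * D₁ + a₂ * D₂ : ℤ) : ℂ) = ((p + 1 : ℤ) : ℂ) := by
      push_cast
      exact h2.symm
    exact_mod_cast h3
  -- the other `rst`
  have hother : ∀ θ' : E →* ℂˣ, θ' ≠ 1 → θ' ≠ θ →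
      classInner (rst χp θ') ξ₁ = 0 ∧ classInner (rst χp θ') ξ₂ = 0 := by
    intro θ' hθ' hne'
    obtain ⟨x, hx⟩ := exists_int_classInner (S.isGen_rst θ') (isGenChar_of_isIrr hξ₁)
    obtain ⟨y, hy⟩ := exists_int_classInner (S.isGen_rst θ') (isGenChar_of_isIrr hξ₂)
    obtain ⟨N, hN, hN2⟩ : ∃ N : ℤ, classInner (rst χp θ') (rst χp θ') = N ∧ N ≤ 2 := by
      have h2 := S.inner_rst θ' θ' hθ' hθ'
      rw [if_pos rfl] at h2
      by_cases h3 : θ' = tu S.hT θ'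
      · rw [if_pos h3] at h2
        exact ⟨2, by rw [h2]; norm_num, le_rfl⟩
      · rw [if_neg h3] at h2
        exact ⟨1, by rw [h2]; norm_num, by norm_num⟩
    have h0 : a₁ * x + a₂ * y = 0 := by
      have h2 := S.inner_rst θ' θ hθ' hθ
      rw [if_neg hne', if_neg (by rw [hfix]; exact hne'), add_zero, hdec', classInner_add_right,
        classInner_smul_right, classInner_smul_right, hx, hy] at h2
      simp only [map_intCast] at h2
      have h3 : ((a₁ * x + a₂ * y : ℤ) : ℂ) = ((0 : ℤ) : ℂ) := by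
        push_cast
        linear_combination h2
      exact_mod_cast h3
    obtain ⟨h3, h4⟩ := orth_pair hξ₁ hξ₂ hne ha₁ ha₂ hx hy hN hN2 h0 (S.rst_one θ' |>.trans (by push_cast; rfl) :
      rst χp θ' 1 = ((p + 1 : ℕ) : ℂ)) (by push_cast; exact hdegZ) hD₁ hD₂ (by omega) (by omega)
    rw [hx, hy, h3, h4]
    simp
  have hgam : ∀ {ξ : G → ℂ} {a : ℤ}, IsIrrCharacter G ξ → (a : ℂ) ≠ 0 → classInner (rst χp θ) ξ = (a : ℂ) →
      (∀ θ' : E →* ℂˣ, θ' ≠ 1 → θ' ≠ θ → classInner (rst χp θ') ξ = 0) →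
      ∀ θ' : E →* ℂˣ, θ' ≠ 1 → classInner (gam θ') ξ = if θ' = θ then (a : ℂ) else 0 := by
    intro ξ a hξ ha hr hoth θ' hθ'
    have h3 : classInner (fun _ : G => (1 : ℂ)) ξ = 0 :=
      classInner_eq_zero_of_isIrr_of_ne hone hξ (Ne.symm (hn1 ha hr))
    have h4 : classInner χp ξ = 0 := classInner_eq_zero_of_isIrr_of_ne S.hχ hξ (Ne.symm (hn2 ha hr))
    have h5 : ∀ θ'' : E →* ℂˣ, classInner (gam θ'') ξ = classInner (rst χp θ'') ξ := by
      intro θ''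
      rw [S.inner_rst_left, h3, h4]
      ring
    rw [h5 θ']
    by_cases h6 : θ' = θ
    · rw [if_pos h6, h6, hr]
    · rw [if_neg h6, hoth θ' hθ' h6]
  refine ⟨ξ₁, ξ₂, a₁, a₂, D₁, D₂, hξ₁, hξ₂, hne, ha₁, ha₂, hD₁, hD₂, hD₁2, hD₂2, hdec', hdegZ, fun x hx => ?_⟩
  exact ⟨S.val_of_inner (isClassFunction_of_isIrrCharacter hξ₁) hθ
      (hgam hξ₁ ha₁0 hr₁ (fun θ' h1' h2' => (hother θ' h1' h2').1)) hx,
    S.val_of_inner (isClassFunction_of_isIrrCharacter hξ₂) hθ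
      (hgam hξ₂ ha₂0 hr₂ (fun θ' h1' h2' => (hother θ' h1' h2').2)) hx⟩

end Fixed

end Cfsg.Agent.Lib.Perm7.Core
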