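import Cfsg.Agent.Lib.Perm7.Even2

/-!
# The case `|E|` even: products of two involutions and the characters `rst θ`
-/

set_option autoImplicit false
set_option linter.unusedSectionVars false
set_option linter.style.haveILetI false

namespace Cfsg.Agent.Lib.Perm7.Core

open scoped BigOperators ComplexConjugate
open Cfsg Module Cfsg.Agent.Lib.Char.Induced Cfsg.Agent.Lib.Char.Ortho Cfsg.Agent.Lib.Char.Linear
open Cfsg.Agent.Lib.Char.Basic Cfsg.Agent.Lib.Char.GenLattice Cfsg.Agent.Lib.Char.Complete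
open Cfsg.Agent.Lib.Char.IndRep Cfsg.Agent.Lib.Perm7.Exc Cfsg.Agent.Lib.Perm7.Label
open Cfsg.Agent.Lib.Perm7.Frob Cfsg.Agent.Lib.Perm7.Integ
open Cfsg.Agent.Lib.Char.Degree
open Cfsg.Agent.Lib.Char.ClassProd

universe u

variable {G : Type u} [Group G] [Fintype G] {p : ℕ} [hp : Fact p.Prime] {P E : Subgroup G} [Fintype P] [Fintype E]
  {u : G} {χp : G → ℂ}

/-- The inner product of the count with an irreducible character. -/
theorem inner_count {χ : G → ℂ} (hχ : IsIrrCharacter G χ) (a b : G) :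
    classInner (fun c => (classProdCount a b c : ℂ)) χ =
      (Nat.card G : ℂ)⁻¹ * conj ((Nat.card {x : G // IsConj a x} : ℂ) * (Nat.card {x : G // IsConj b x} : ℂ) *
        (χ a * χ b / χ 1)) := by
  classical
  rw [classInner_def, ← sum_class_sum_class_irr hχ]
  congr 1
  rw [sum_classProdCount_mul a b (fun g => conj (χ g))]
  simp only [map_sum]

/-- The constant. -/
noncomputable def kap (G : Type u) [Group G] [Fintype G] (z : G) : ℂ :=
  (Nat.card G : ℂ)⁻¹ * (Nat.card {x : G // IsConj z x} : ℂ) * (Nat.card {x : G // IsConj z x} : ℂ)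

theorem kap_ne (z : G) : kap G z ≠ 0 := by
  have h1 : (Nat.card G : ℂ) ≠ 0 := Nat.cast_ne_zero.mpr Nat.card_pos.ne'
  have h2 : (Nat.card {x : G // IsConj z x} : ℂ) ≠ 0 := by
    apply Nat.cast_ne_zero.mpr
    haveI : Nonempty {x : G // IsConj z x} := ⟨⟨z, IsConj.refl z⟩⟩
    exact Nat.card_pos.ne'
  unfold kap
  exact mul_ne_zero (mul_ne_zero (inv_ne_zero h1) h2) h2

section Count

variable {z : G} (hz2 : z * z = 1)
include hz2

theorem inner_Phi {χ : G → ℂ} (hχ : IsIrrCharacter G χ) :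
    classInner (fun c => (classProdCount z z c : ℂ)) χ = kap G z * (χ z * χ z / χ 1) := by
  have hχc := isCharacter_of_isIrrCharacter hχ
  have hzinv : z⁻¹ = z := inv_eq_of_mul_eq_one_left hz2
  have hreal : conj (χ z) = χ z := by
    rw [← char_inv_eq_conj hχc, hzinv]
  have hone : conj (χ 1) = χ 1 := by
    rw [← charDegree_natCast hχc, Complex.conj_natCast]
  rw [inner_count hχ, kap]
  simp only [map_mul, map_div₀, map_natCast, hreal, hone]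
  ring

end Count

omit [Fintype P] in
/-- Frobenius reciprocity for the count. -/
theorem Phi_gam_sum (z : G) (θ : E →* ℂˣ) :
    (Nat.card E : ℂ) * classInner (fun c => (classProdCount z z c : ℂ)) (gam θ) =
      ∑ x : E, (classProdCount z z (x : G) : ℂ) * (tb θ x - 1) := by
  have h1 := inner_gam θ (isClassFunction_classProdCount z z)
  have h2 : classInner (fun c => (classProdCount z z c : ℂ)) (gam θ) =
      classInner (fun x : E => (classProdCount z z (x : G) : ℂ)) (ff θ) := by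
    rw [← classInner_conj (gam θ), h1, classInner_conj]
  rw [h2, classInner_def, mul_inv_cancel_left₀ (Nat.cast_ne_zero.mpr Nat.card_pos.ne')]
  refine Finset.sum_congr rfl fun x _ => ?_
  simp only [ff, map_sub, map_one, conj_val]

omit [Fintype P] in
theorem supp_of_ne (z : G) {θ : E →* ℂˣ} (hne : classInner (fun c => (classProdCount z z c : ℂ)) (gam θ) ≠ 0) :
    ∃ x : E, x ≠ 1 ∧ classProdCount z z (x : G) ≠ 0 ∧ θ x ≠ 1 := by
  by_contra hcon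
  push Not at hcon
  apply hne
  have h1 := Phi_gam_sum z θ
  have h2 : ∀ x : E, (classProdCount z z (x : G) : ℂ) * (tb θ x - 1) = 0 := by
    intro x
    by_cases hx : x = 1
    · subst hx
      simp [tb]
    · by_cases hc : classProdCount z z (x : G) = 0
      · rw [hc]
        simp
      · have h3 := hcon x hx hc
        simp [tb, h3]
  rw [Finset.sum_eq_zero (fun x _ => h2 x)] at h1
  exact (mul_eq_zero.mp h1).resolve_left (Nat.cast_ne_zero.mpr Nat.card_pos.ne')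

omit [Fintype P] in
/-- The value of the inner product if the count is constant. -/
theorem Phi_gam_of_count (z : G) {θ : E →* ℂˣ} (hθ : θ ≠ 1)
    (hc : ∀ x : E, x ≠ 1 → classProdCount z z (x : G) = Nat.card E) :
    classInner (fun c => (classProdCount z z c : ℂ)) (gam θ) = - (Nat.card E : ℂ) := by
  classical
  have h1 := Phi_gam_sum z θ
  have he : (Nat.card E : ℂ) ≠ 0 := Nat.cast_ne_zero.mpr Nat.card_pos.ne'
  have h2 : ∀ x : E, (classProdCount z z (x : G) : ℂ) * (tb θ x - 1) = (Nat.card E : ℂ) * (tb θ x - 1) := by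
    intro x
    by_cases hx : x = 1
    · subst hx
      simp [tb]
    · rw [hc x hx]
  rw [Finset.sum_congr rfl (fun x _ => h2 x), ← Finset.mul_sum] at h1
  have h3 : ∑ x : E, (tb θ x - 1) = - (Nat.card E : ℂ) := by
    have h4 := sum_tb_mul θ (1 : E →* ℂˣ)
    rw [if_neg (Ne.symm hθ)] at h4
    simp only [MonoidHom.one_apply, Units.val_one, mul_one] at h4
    rw [Finset.sum_sub_distrib, h4]
    simp [Nat.card_eq_fintype_card]
  rw [h3] at h1
  exact mul_left_cancel₀ he h1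

section Sys

variable (S : Sys p P E u χp) {z : G} (hzE : z ∈ E) (hz1 : z ≠ 1) (hz2 : z * z = 1)
include S hzE hz1 hz2

theorem Sys.Phi_one : classInner (fun c => (classProdCount z z c : ℂ)) (fun _ => 1) = kap G z := by
  have hone : IsIrrCharacter G (fun _ : G => (1 : ℂ)) := by
    simpa using isIrrCharacter_of_hom (1 : G →* ℂˣ)
  rw [inner_Phi hz2 hone]
  simp

theorem Sys.Phi_χ : classInner (fun c => (classProdCount z z c : ℂ)) χp = kap G z * (1 / (p : ℂ)) := by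
  rw [inner_Phi hz2 S.hχ, S.hχE z hzE hz1, S.hχ1]
  simp

theorem Sys.Phi_gam (θ : E →* ℂˣ) :
    classInner (fun c => (classProdCount z z c : ℂ)) (gam θ) =
      classInner (fun c => (classProdCount z z c : ℂ)) (rst χp θ) - kap G z - kap G z * (1 / (p : ℂ)) := by
  rw [rst_eq, classInner_add_right, classInner_add_right, S.Phi_one hzE hz1 hz2, S.Phi_χ hzE hz1 hz2]
  ring

theorem Sys.val_z_sq (θ : E →* ℂˣ) : ((θ ⟨z, hzE⟩ : ℂˣ) : ℂ) * ((θ ⟨z, hzE⟩ : ℂˣ) : ℂ) = 1 := by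
  rw [← Units.val_mul, ← map_mul]
  have h : (⟨z, hzE⟩ : E) * ⟨z, hzE⟩ = 1 := Subtype.ext hz2
  rw [h]
  simp

theorem Sys.rst_z (θ : E →* ℂˣ) : rst χp θ z = 2 * ((θ ⟨z, hzE⟩ : ℂˣ) : ℂ) := by
  have hne : (⟨z, hzE⟩ : E) ≠ 1 := fun h => hz1 (congrArg Subtype.val h)
  have h1 := S.rst_E θ hne
  have h2 : cu S.hT ⟨z, hzE⟩ = ⟨z, hzE⟩ := by
    apply Subtype.ext
    simp only [coe_cu]
    have h3 := S.conj_z_of_norm hzE hz1 hz2 (Subgroup.inv_mem _ S.hT.hu)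
    simpa using h3
  have h4 : rst χp θ z = ((θ ⟨z, hzE⟩ : ℂˣ) : ℂ) + ((tu S.hT θ ⟨z, hzE⟩ : ℂˣ) : ℂ) := h1
  rw [h4, tu_apply, h2, two_mul]

theorem Sys.Phi_rst_irr {θ : E →* ℂˣ} (hθ : θ ≠ 1) (hne : θ ≠ tu S.hT θ) :
    classInner (fun c => (classProdCount z z c : ℂ)) (rst χp θ) = kap G z * (4 / ((p : ℂ) + 1)) := by
  rw [inner_Phi hz2 (S.isIrr_rst_of_ne hθ hne), S.rst_z hzE hz1 hz2, S.rst_one]
  have h := S.val_z_sq hzE hz1 hz2 θ
  congr 2
  linear_combination 4 * h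

/-- The inner product for fixed `θ`. -/
theorem Sys.Phi_rst_fix {θ : E →* ℂˣ} {ξ₁ ξ₂ : G → ℂ} {a₁ a₂ : ℤ} {D₁ D₂ : ℕ} (hξ₁ : IsIrrCharacter G ξ₁)
    (hξ₂ : IsIrrCharacter G ξ₂) (ha₁ : a₁ = 1 ∨ a₁ = -1) (ha₂ : a₂ = 1 ∨ a₂ = -1) (hD₁ : ξ₁ 1 = D₁) (hD₂ : ξ₂ 1 = D₂)
    (hdec : rst χp θ = (a₁ : ℂ) • ξ₁ + (a₂ : ℂ) • ξ₂)
    (hval : ∀ x : E, x ≠ 1 → ξ₁ x = (a₁ : ℂ) * ((θ x : ℂˣ) : ℂ) ∧ ξ₂ x = (a₂ : ℂ) * ((θ x : ℂˣ) : ℂ)) :
    classInner (fun c => (classProdCount z z c : ℂ)) (rst χp θ) =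
      kap G z * ((a₁ : ℂ) / D₁ + (a₂ : ℂ) / D₂) := by
  have hne : (⟨z, hzE⟩ : E) ≠ 1 := fun h => hz1 (congrArg Subtype.val h)
  have hsq := S.val_z_sq hzE hz1 hz2 θ
  obtain ⟨h1, h2⟩ := hval _ hne
  have h1' : ξ₁ z = (a₁ : ℂ) * ((θ ⟨z, hzE⟩ : ℂˣ) : ℂ) := h1
  have h2' : ξ₂ z = (a₂ : ℂ) * ((θ ⟨z, hzE⟩ : ℂˣ) : ℂ) := h2
  have ha₁2 : (a₁ : ℂ) * (a₁ : ℂ) = 1 := by
    rcases ha₁ with rfl | rfl <;> norm_num
  have ha₂2 : (a₂ : ℂ) * (a₂ : ℂ) = 1 := by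
    rcases ha₂ with rfl | rfl <;> norm_num
  rw [hdec, classInner_add_right, classInner_smul_right, classInner_smul_right, inner_Phi hz2 hξ₁, inner_Phi hz2 hξ₂,
    h1', h2', hD₁, hD₂]
  simp only [map_intCast]
  have e1 : (a₁ : ℂ) * ((θ ⟨z, hzE⟩ : ℂˣ) : ℂ) * ((a₁ : ℂ) * ((θ ⟨z, hzE⟩ : ℂˣ) : ℂ)) = 1 := by
    calc _ = ((a₁ : ℂ) * (a₁ : ℂ)) * (((θ ⟨z, hzE⟩ : ℂˣ) : ℂ) * ((θ ⟨z, hzE⟩ : ℂˣ) : ℂ)) := by ring
      _ = 1 := by rw [ha₁2, hsq, one_mul]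
  have e2 : (a₂ : ℂ) * ((θ ⟨z, hzE⟩ : ℂˣ) : ℂ) * ((a₂ : ℂ) * ((θ ⟨z, hzE⟩ : ℂˣ) : ℂ)) = 1 := by
    calc _ = ((a₂ : ℂ) * (a₂ : ℂ)) * (((θ ⟨z, hzE⟩ : ℂˣ) : ℂ) * ((θ ⟨z, hzE⟩ : ℂˣ) : ℂ)) := by ring
      _ = 1 := by rw [ha₂2, hsq, one_mul]
  rw [e1, e2]
  ring

end Sys

end Cfsg.Agent.Lib.Perm7.Core
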