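import Cfsg.Agent.Lib.Char.IndRep
import Cfsg.Agent.Lib.Char.GenLattice
import Cfsg.Agent.Lib.Char.Linear
import Cfsg.Agent.Lib.Char.TI
import Cfsg.Agent.Lib.Char.Complete
import Cfsg.Prelude.Def_Characters

/-!
# The virtual characters `Ind_E^G (θ - 1)` for a T.I. abelian subgroup with `|N(E) : E| = 2`
-/

set_option autoImplicit false
set_option linter.unusedSectionVars false
set_option linter.style.haveILetI false

namespace Cfsg.Agent.Lib.Perm7.Exc

open scoped BigOperators ComplexConjugate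
open Cfsg Cfsg.Agent.Lib.Char.Induced Cfsg.Agent.Lib.Char.Ortho Cfsg.Agent.Lib.Char.Linear
open Cfsg.Agent.Lib.Char.Basic Cfsg.Agent.Lib.Char.GenLattice Cfsg.Agent.Lib.Char.Complete
open Cfsg.Agent.Lib.Char.IndRep

universe u

variable {G : Type u} [Group G]

/-- The hypotheses on `E` and `u`. -/
structure TIE (E : Subgroup G) (u : G) : Prop where
  hu : u ∈ Subgroup.normalizer (E : Set G)
  huE : u ∉ E
  hN2 : ∀ a ∈ Subgroup.normalizer (E : Set G), a ∈ E ∨ u⁻¹ * a ∈ E
  hti : ∀ g x, x ∈ E → x ≠ 1 → g * x * g⁻¹ ∈ E → g ∈ Subgroup.normalizer (E : Set G)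
  hcomm : ∀ a b : E, a * b = b * a

section Conj

variable {E : Subgroup G} {u : G}

/-- Conjugation by `u` on `E`. -/
def cu (h : TIE E u) : E →* E where
  toFun x := ⟨u⁻¹ * x * u, by
    have h1 := (Subgroup.mem_set_normalizer_iff.mp (Subgroup.inv_mem _ h.hu) (x : G)).mp x.2
    simpa using h1⟩
  map_one' := by
    apply Subtype.ext
    simp
  map_mul' a b := by
    apply Subtype.ext
    simp only [Subgroup.coe_mul]
    group

@[simp] theorem coe_cu (h : TIE E u) (x : E) : ((cu h x : E) : G) = u⁻¹ * x * u := rfl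

theorem cu_ne_one (h : TIE E u) {x : E} (hx : x ≠ 1) : cu h x ≠ 1 := by
  intro h1
  apply hx
  have h2 : u⁻¹ * (x : G) * u = 1 := congrArg Subtype.val h1
  apply Subtype.ext
  have h3 : (x : G) = u * (u⁻¹ * x * u) * u⁻¹ := by group
  rw [h3, h2]
  simp

theorem cu_cu (h : TIE E u) (x : E) : cu h (cu h x) = x := by
  have h2 : u⁻¹ * u⁻¹ ∈ E := by
    rcases h.hN2 (u * u) (Subgroup.mul_mem _ h.hu h.hu) with h3 | h3
    · have := E.inv_mem h3
      simpa using this
    · exfalso
      apply h.huE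
      simpa using h3
  apply Subtype.ext
  simp only [coe_cu]
  have h3 := h.hcomm ⟨_, h2⟩ x
  have h4 : u⁻¹ * u⁻¹ * (x : G) = x * (u⁻¹ * u⁻¹) := congrArg Subtype.val h3
  calc u⁻¹ * (u⁻¹ * x * u) * u = (u⁻¹ * u⁻¹ * (x : G)) * (u * u) := by group
    _ = x * (u⁻¹ * u⁻¹) * (u * u) := by rw [h4]
    _ = x := by group

/-- The action on characters. -/
def tu (h : TIE E u) (θ : E →* ℂˣ) : E →* ℂˣ := θ.comp (cu h)

@[simp] theorem tu_apply (h : TIE E u) (θ : E →* ℂˣ) (x : E) : tu h θ x = θ (cu h x) := rfl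

theorem tu_tu (h : TIE E u) (θ : E →* ℂˣ) : tu h (tu h θ) = θ := by
  ext x
  simp [cu_cu]

theorem tu_one (h : TIE E u) : tu h (1 : E →* ℂˣ) = 1 := by
  ext x
  simp

theorem tu_ne_one (h : TIE E u) {θ : E →* ℂˣ} (hθ : θ ≠ 1) : tu h θ ≠ 1 := by
  intro h1
  apply hθ
  rw [← tu_tu h θ, h1, tu_one]

end Conj

section Gam

variable [Fintype G] {E : Subgroup G} {u : G} [Fintype E]

/-- The linear function of `θ`. -/
def lin (θ : E →* ℂˣ) : E → ℂ := fun x => ((θ x : ℂˣ) : ℂ)

@[simp] theorem lin_apply (θ : E →* ℂˣ) (x : E) : lin θ x = ((θ x : ℂˣ) : ℂ) := rfl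

theorem lin_irr (θ : E →* ℂˣ) : IsIrrCharacter E (lin θ) := isIrrCharacter_of_hom θ

theorem lin_one : lin (1 : E →* ℂˣ) = fun _ => 1 := by
  funext x
  simp

theorem lin_inj {θ θ' : E →* ℂˣ} (h : lin θ = lin θ') : θ = θ' := by
  ext x
  exact congrFun h x

/-- Orthogonality of linear characters. -/
theorem inner_lin (θ θ' : E →* ℂˣ) [Decidable (θ = θ')] :
    classInner (lin θ) (lin θ') = if θ = θ' then 1 else 0 := by
  classical
  rw [classInner_irr (lin_irr θ) (lin_irr θ')]
  by_cases h : θ = θ'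
  · rw [if_pos h, if_pos (congrArg lin h)]
  · rw [if_neg h, if_neg (fun h' => h (lin_inj h'))]

/-- The basic function on `E`. -/
def ff (θ : E →* ℂˣ) : E → ℂ := fun x => ((θ x : ℂˣ) : ℂ) - 1

theorem ff_eq (θ : E →* ℂˣ) : ff θ = lin θ - lin 1 := by
  funext x
  simp [ff]

@[simp] theorem ff_one (θ : E →* ℂˣ) : ff θ 1 = 0 := by
  simp [ff]

/-- The virtual character. -/
noncomputable def gam (θ : E →* ℂˣ) : G → ℂ := indFun E (ff θ)

theorem isClass_gam (θ : E →* ℂˣ) : IsClassFunction G (gam θ) := isClassFunction_indFun E _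

theorem isGen_gam (θ : E →* ℂˣ) : IsGeneralizedCharacter G (gam θ) := by
  have h : gam θ = indFun E (lin θ) - indFun E (lin 1) := by
    rw [gam, ff_eq, indFun_sub]
  rw [h]
  exact isGenChar_sub (isGenChar_of_isCharacter (isCharacter_indFun E (isCharacter_of_isIrrCharacter (lin_irr θ))))
    (isGenChar_of_isCharacter (isCharacter_indFun E (isCharacter_of_isIrrCharacter (lin_irr 1))))

theorem gam_one (θ : E →* ℂˣ) : gam θ 1 = 0 := by
  rw [gam, indFun_apply]
  have h : ∀ a : G, extendByZero E (ff θ) (a⁻¹ * 1 * a) = 0 := by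
    intro a
    have h1 : a⁻¹ * 1 * a = ((1 : E) : G) := by simp
    rw [h1, extendByZero_coe, ff_one]
  rw [Finset.sum_congr rfl (fun a _ => h a)]
  simp

/-- A sum over a subgroup as a sum with indicator. -/
theorem sum_ite_mem_subgroup (H : Subgroup G) [Fintype H] (F : G → ℂ) :
    ∑ a : G, (open scoped Classical in if a ∈ H then F a else 0) = ∑ b : H, F b := by
  classical
  have h1 : ∀ a : G, (if a ∈ H then F a else 0) = extendByZero H (fun b : H => F b) a := by
    intro a
    by_cases ha : a ∈ H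
    · rw [if_pos ha, extendByZero_of_mem H _ ha]
    · rw [if_neg ha, extendByZero_of_not_mem H _ ha]
  simp only [h1]
  exact sum_extendByZero H _

/-- The value of `gam` on `E`. -/
theorem gam_apply (h : TIE E u) (θ : E →* ℂˣ) {x : E} (hx : x ≠ 1) :
    gam θ (x : G) = ff θ x + ff θ (cu h x) := by
  classical
  rw [gam, indFun_apply]
  have hterm : ∀ a : G, extendByZero E (ff θ) (a⁻¹ * x * a) =
      (if a ∈ E then ff θ x else 0) + (if u⁻¹ * a ∈ E then ff θ (cu h x) else 0) := by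
    intro a
    have hx1 : (x : G) ≠ 1 := fun h' => hx (Subtype.ext h')
    by_cases ha : a ∈ E
    · have h2 : u⁻¹ * a ∉ E := fun h3 => h.huE (by
        have h4 := E.mul_mem h3 (E.inv_mem ha)
        have h5 := E.inv_mem h4
        simpa using h5)
      rw [if_pos ha, if_neg h2, add_zero]
      have h3 : a⁻¹ * x * a = ((⟨a, ha⟩⁻¹ * x * ⟨a, ha⟩ : E) : G) := by simp
      rw [h3, extendByZero_coe]
      congr 1
      rw [h.hcomm (⟨a, ha⟩⁻¹) x]
      simp
    · by_cases ha2 : u⁻¹ * a ∈ E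
      · rw [if_neg ha, if_pos ha2, zero_add]
        have h3 : a⁻¹ * x * a = ((⟨u⁻¹ * a, ha2⟩⁻¹ * cu h x * ⟨u⁻¹ * a, ha2⟩ : E) : G) := by
          simp only [Subgroup.coe_mul, Subgroup.coe_inv, coe_cu]
          group
        rw [h3, extendByZero_coe]
        congr 1
        rw [h.hcomm (⟨u⁻¹ * a, ha2⟩⁻¹) (cu h x)]
        simp
      · rw [if_neg ha, if_neg ha2, add_zero]
        have hmem : a⁻¹ * x * a ∉ E := by
          intro h3
          have h4 := h.hti a⁻¹ x x.2 hx1 (by simpa using h3)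
          have h5 : a ∈ Subgroup.normalizer (E : Set G) := by
            have := Subgroup.inv_mem _ h4
            simpa using this
          rcases h.hN2 a h5 with h6 | h6
          · exact ha h6
          · exact ha2 h6
        exact extendByZero_of_not_mem E _ hmem
  simp only [hterm]
  rw [Finset.sum_add_distrib, sum_ite_mem_subgroup E (fun _ => ff θ x)]
  have h2 : ∑ a : G, (if u⁻¹ * a ∈ E then ff θ (cu h x) else 0) = ∑ a : G, (if a ∈ E then ff θ (cu h x) else 0) :=
    Equiv.sum_comp (Equiv.mulLeft u⁻¹) (fun a => if a ∈ E then ff θ (cu h x) else 0)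
  rw [h2, sum_ite_mem_subgroup E (fun _ => ff θ (cu h x))]
  simp only [Finset.sum_const, Finset.card_univ, nsmul_eq_mul]
  rw [← Nat.card_eq_fintype_card]
  have hE : (Nat.card E : ℂ) ≠ 0 := Nat.cast_ne_zero.mpr Nat.card_pos.ne'
  field_simp

/-- `gam` vanishes off the conjugates of `E`. -/
theorem gam_eq_zero (θ : E →* ℂˣ) {g : G} (hg : ∀ (a : G) (x : E), x ≠ 1 → g ≠ a * x * a⁻¹) : gam θ g = 0 := by
  classical
  rw [gam, indFun_apply]
  have h : ∀ a : G, extendByZero E (ff θ) (a⁻¹ * g * a) = 0 := by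
    intro a
    by_cases ha : a⁻¹ * g * a ∈ E
    · rw [extendByZero_of_mem E _ ha]
      by_cases h1 : (⟨_, ha⟩ : E) = 1
      · rw [h1, ff_one]
      · exfalso
        apply hg a _ h1
        simp only
        group
    · exact extendByZero_of_not_mem E _ ha
  simp [h]

/-- Frobenius reciprocity for `gam`. -/
theorem inner_gam (θ : E →* ℂˣ) {ψ : G → ℂ} (hψ : IsClassFunction G ψ) :
    classInner (gam θ) ψ = classInner (ff θ) (fun x : E => ψ x) :=
  classInner_indFun_left E _ ψ hψ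

/-- Inner products with `ff`. -/
theorem inner_ff_of_eq (θ : E →* ℂˣ) {a b : E → ℂ} (hab : ∀ x : E, x ≠ 1 → a x = b x) :
    classInner (ff θ) a = classInner (ff θ) b := by
  rw [classInner_def, classInner_def]
  congr 1
  refine Finset.sum_congr rfl fun x _ => ?_
  by_cases hx : x = 1
  · rw [hx, ff_one, zero_mul, zero_mul]
  · rw [hab x hx]

theorem ff_lin (θ θ' : E →* ℂˣ) [Decidable (θ = θ')] [Decidable ((1 : E →* ℂˣ) = θ')] :
    classInner (ff θ) (lin θ') = (if θ = θ' then 1 else 0) - (if (1 : E →* ℂˣ) = θ' then 1 else 0) := by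
  rw [ff_eq, classInner_sub_left, inner_lin, inner_lin]

/-- The inner product of `gam θ` with a class function which is `1` on `E#`. -/
theorem inner_gam_of_one (θ : E →* ℂˣ) (hθ : θ ≠ 1) {ψ : G → ℂ} (hψ : IsClassFunction G ψ)
    (h1 : ∀ x : E, x ≠ 1 → ψ x = 1) : classInner (gam θ) ψ = -1 := by
  classical
  rw [inner_gam θ hψ, inner_ff_of_eq θ (b := lin 1) (fun x hx => by rw [h1 x hx]; simp), ff_lin]
  simp [hθ]

/-- The Gram matrix of the `gam`. -/
theorem inner_gam_gam (h : TIE E u) {θ θ' : E →* ℂˣ} (hθ : θ ≠ 1) (hθ' : θ' ≠ 1)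
    [Decidable (θ = θ')] [Decidable (θ = tu h θ')] :
    classInner (gam θ) (gam θ') = (if θ = θ' then 1 else 0) + (if θ = tu h θ' then 1 else 0) + 2 := by
  classical
  rw [inner_gam θ (isClass_gam θ')]
  have h1 : ∀ x : E, x ≠ 1 → gam θ' (x : G) = ((lin θ' + lin (tu h θ') + (-2 : ℂ) • lin 1 : E → ℂ)) x := by
    intro x hx
    rw [gam_apply h θ' hx]
    simp [ff]
    ring
  rw [inner_ff_of_eq θ h1, classInner_add_right, classInner_add_right, classInner_smul_right, ff_lin, ff_lin, ff_lin]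
  have h2 := tu_ne_one h hθ'
  simp [hθ, hθ'.symm, h2.symm, map_ofNat]
  try ring

end Gam

end Cfsg.Agent.Lib.Perm7.Exc
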