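import Cfsg.Agent.Lib.Perm7.Label

/-!
# A Frobenius congruence in valuation subrings of `ℂ`

If `β` is a `ℤ`-combination of `e`-th roots of unity, `p ∤ e`, `p` lies in the maximal ideal of the
valuation ring `V` and so does `β`, then `β / p ∈ V`.
-/

set_option autoImplicit false

namespace Cfsg.Agent.Lib.Perm7.Frob

open Cfsg.Agent.Lib.Perm7.Label

/-- The ring generated by the `e`-th roots of unity. -/
def Rz (e : ℕ) : Subring ℂ := Subring.closure {z | z ^ e = 1}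

theorem root_mem_Rz {e : ℕ} {z : ℂ} (hz : z ^ e = 1) : z ∈ Rz e := Subring.subset_closure hz

theorem Rz_le (V : ValuationSubring ℂ) {e : ℕ} (he : e ≠ 0) : Rz e ≤ V.toSubring := by
  rw [Rz, Subring.closure_le]
  intro z hz
  exact mem_of_pow_eq_one V he hz

/-- The Frobenius congruence. -/
theorem div_mem_of_nonunit {p e : ℕ} [hp : Fact p.Prime] (he : e ≠ 0) (hpe : Nat.Coprime p e)
    {V : ValuationSubring ℂ} (hpV : (p : ℂ) ∈ V.nonunits) {β : ℂ} (hβ : β ∈ Rz e) (hβV : β ∈ V.nonunits) :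
    β / p ∈ V := by
  classical
  obtain ⟨hp1, hp2⟩ := ValuationSubring.mem_nonunits_iff_exists_mem_maximalIdeal.mp hpV
  obtain ⟨hb1, hb2⟩ := ValuationSubring.mem_nonunits_iff_exists_mem_maximalIdeal.mp hβV
  -- the quotient ring
  let pp : V := ⟨(p : ℂ), hp1⟩
  have hpp : pp = ((p : ℕ) : V) := by
    apply Subtype.ext
    simp [pp]
  let I : Ideal V := Ideal.span {pp}
  have hI : I ≠ ⊤ := by
    intro h
    have h1 : I ≤ IsLocalRing.maximalIdeal V := by
      rw [Ideal.span_le]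
      rintro _ rfl
      exact hp2
    rw [h] at h1
    exact (IsLocalRing.maximalIdeal.isMaximal V).ne_top (top_le_iff.mp h1)
  let Q := V ⧸ I
  haveI : Nontrivial Q := Ideal.Quotient.nontrivial_iff.mpr hI
  haveI hchar : CharP Q p := by
    rw [CharP.charP_iff_prime_eq_zero hp.out]
    have h1 : (Ideal.Quotient.mk I) pp = 0 := Ideal.Quotient.eq_zero_iff_mem.mpr (Ideal.mem_span_singleton_self _)
    rw [hpp, map_natCast] at h1
    exact h1
  haveI : ExpChar Q p := ExpChar.prime hp.out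
  -- the power
  let k : ℕ := Nat.totient e
  have hk : p ^ k ≡ 1 [MOD e] := Nat.ModEq.pow_totient hpe
  have hkpos : 0 < k := Nat.totient_pos.mpr (Nat.pos_of_ne_zero he)
  set q : ℕ := p ^ k with hq
  have hq1 : 2 ≤ q := by
    calc 2 ≤ p := hp.out.two_le
      _ = p ^ 1 := (pow_one p).symm
      _ ≤ p ^ k := Nat.pow_le_pow_right hp.out.pos hkpos
  -- the Frobenius fixes the roots of unity
  let F : Q →+* Q := iterateFrobenius Q p k
  have hF : ∀ a : Q, F a = a ^ q := fun a => iterateFrobenius_def p k a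
  let S : Subring V := (RingHom.eqLocus F (RingHom.id Q)).comap (Ideal.Quotient.mk I)
  have hSmem : ∀ a : V, a ∈ S ↔ (Ideal.Quotient.mk I a) ^ q = Ideal.Quotient.mk I a := by
    intro a
    change F (Ideal.Quotient.mk I a) = Ideal.Quotient.mk I a ↔ _
    rw [hF]
  have hroot : ∀ z : ℂ, z ^ e = 1 → ∀ hz : z ∈ V, (⟨z, hz⟩ : V) ∈ S := by
    intro z hz1 hz
    rw [hSmem, ← map_pow]
    congr 1
    apply Subtype.ext
    change z ^ q = z
    have h1 : q % e = 1 % e := hk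
    rw [pow_eq_pow_mod q hz1, h1, ← pow_eq_pow_mod 1 hz1, pow_one]
  have hRz : Rz e ≤ S.map V.subtype := by
    rw [Rz, Subring.closure_le]
    intro z hz
    have hz' : z ∈ V := mem_of_pow_eq_one V he hz
    exact ⟨⟨z, hz'⟩, hroot z hz hz', rfl⟩
  obtain ⟨b, hbS, hb⟩ := hRz hβ
  have hb' : b = ⟨β, hb1⟩ := Subtype.ext hb
  subst hb'
  replace hbS : (⟨β, hb1⟩ : V) ∈ S := hbS
  rw [hSmem] at hbS
  -- the congruence
  have hmem : (⟨β, hb1⟩ : V) ^ q - ⟨β, hb1⟩ ∈ I := by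
    rw [← Ideal.Quotient.eq_zero_iff_mem, map_sub, map_pow, hbS, sub_self]
  obtain ⟨c, hc⟩ := Ideal.mem_span_singleton'.mp hmem
  -- `1 - b ^ (q - 1)` is a unit
  obtain ⟨r, hr⟩ : ∃ r, q = r + 2 := ⟨q - 2, by omega⟩
  have hunit : IsUnit ((1 : V) - (⟨β, hb1⟩ : V) ^ (r + 1)) := by
    by_contra hnu
    have h1 : (1 : V) - (⟨β, hb1⟩ : V) ^ (r + 1) ∈ IsLocalRing.maximalIdeal V :=
      (IsLocalRing.mem_maximalIdeal _).mpr hnu
    have h2 : (⟨β, hb1⟩ : V) ^ (r + 1) ∈ IsLocalRing.maximalIdeal V :=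
      Ideal.pow_mem_of_mem _ hb2 _ (Nat.succ_pos r)
    have h3 : (1 : V) ∈ IsLocalRing.maximalIdeal V := by
      have := Ideal.add_mem _ h1 h2
      simpa using this
    exact (IsLocalRing.maximalIdeal.isMaximal V).ne_top ((Ideal.eq_top_iff_one _).mpr h3)
  obtain ⟨w, hw⟩ := hunit.exists_right_inv
  -- conclude
  have hfin : (⟨β, hb1⟩ : V) = pp * (-c * w) := by
    have h1 : (⟨β, hb1⟩ : V) * ((1 : V) - (⟨β, hb1⟩ : V) ^ (r + 1)) = - (c * pp) := by
      rw [hc, hr]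
      ring
    calc (⟨β, hb1⟩ : V) = (⟨β, hb1⟩ : V) * ((1 : V) - (⟨β, hb1⟩ : V) ^ (r + 1)) * w := by
          rw [mul_assoc, hw, mul_one]
      _ = _ := by rw [h1]; ring
  have h2 : β = (p : ℂ) * ((-c * w : V) : ℂ) := congrArg Subtype.val hfin
  have hp0 : (p : ℂ) ≠ 0 := Nat.cast_ne_zero.mpr hp.out.ne_zero
  rw [h2, mul_div_cancel_left₀ _ hp0]
  exact (-c * w : V).2

end Cfsg.Agent.Lib.Perm7.Frob
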