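import Cfsg.Agent.Lib.Perm7.Frob

/-!
# Integrality of twisted sums and the main inequality
-/

set_option autoImplicit false
set_option linter.unusedSectionVars false
set_option linter.style.haveILetI false

namespace Cfsg.Agent.Lib.Perm7.Integ

open scoped BigOperators
open Module Cfsg Cfsg.Agent.Lib.Perm7.Lat Cfsg.Agent.Lib.ModTI.Integral
open Cfsg.Agent.Lib.Char.Complete Cfsg.Agent.Lib.Char.Ortho Cfsg.Agent.Lib.Char.Basic
open Cfsg.Agent.Lib.Perm7.Label Cfsg.Agent.Lib.Perm7.Frob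

universe u v

variable {G : Type u} [Group G] [Fintype G] {W : Type v} [AddCommGroup W] [Module ℂ W]
  [FiniteDimensional ℂ W]

/-- Schur: the convolution operator vanishes on an irreducible representation orthogonal to `f`. -/
theorem convOp_eq_zero_of_inner {f : G → ℂ} (hf : IsClassFunction G f) (ρ : Representation ℂ G W)
    (hρ : ρ.IsIrreducible) (h : classInner f ρ.character = 0) : convOp f ρ = 0 := by
  have := nontrivial_of_isIrreducible hρ
  obtain ⟨c, hc⟩ := schur_scalar ρ hρ (convOp f ρ) (convOp_comm hf ρ)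
  have h1 := trace_convOp f ρ
  rw [h, mul_zero, hc, map_smul, LinearMap.trace_id, smul_eq_mul, mul_eq_zero] at h1
  rcases h1 with h1 | h1
  · rw [hc, h1, zero_smul]
  · exact absurd h1 (Nat.cast_ne_zero.mpr Module.finrank_pos.ne')

/-- The dimension of the fixed space of a subgroup. -/
noncomputable def fixDim (ρ : Representation ℂ G W) (P : Subgroup G) : ℕ :=
  finrank ℂ (Representation.invariants (MonoidHom.comp ρ P.subtype))

theorem fixDim_eq (ρ : Representation ℂ G W) (P : Subgroup G) [Fintype P] :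
    (fixDim ρ P : ℂ) = (Fintype.card P : ℂ)⁻¹ * ∑ y : P, ρ.character (y : G) := by
  classical
  haveI : Invertible ((Nat.card P : ℕ) : ℂ) := invertibleOfNonzero (Nat.cast_ne_zero.mpr Nat.card_pos.ne')
  have h1 := Representation.card_inv_mul_sum_char_eq_finrank (MonoidHom.comp ρ P.subtype)
  rw [fixDim, ← h1, Nat.card_eq_fintype_card]
  rfl

/-- Units of valuation subrings. -/
theorem inv_mem_of_not_nonunits {V : ValuationSubring ℂ} {a : ℂ} (ha : a ∈ V) (hn : a ∉ V.nonunits) :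
    a ≠ 0 ∧ a⁻¹ ∈ V := by
  have h1 : IsUnit (⟨a, ha⟩ : V) := by
    by_contra hnu
    apply hn
    rw [ValuationSubring.mem_nonunits_iff_exists_mem_maximalIdeal]
    exact ⟨ha, (IsLocalRing.mem_maximalIdeal _).mpr hnu⟩
  obtain ⟨w, hw⟩ := h1.exists_right_inv
  have h2 : a * (w : ℂ) = 1 := congrArg Subtype.val hw
  have h3 : a ≠ 0 := left_ne_zero_of_mul_eq_one h2
  refine ⟨h3, ?_⟩
  have h4 : a⁻¹ = (w : ℂ) := by
    field_simp
    exact h2.symm
  rw [h4]
  exact w.2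

/-- A natural number prime to `p` is invertible in `V`. -/
theorem inv_natCast_mem {V : ValuationSubring ℂ} {p e : ℕ} (hp : p.Prime) (hpV : (p : ℂ) ∈ V.nonunits)
    (hcop : Nat.Coprime p e) : ((e : ℕ) : ℂ)⁻¹ ∈ V := by
  have hnat : ∀ n : ℕ, (n : ℂ) ∈ V := fun n => by simpa using V.toSubring.natCast_mem n
  have hint : ∀ n : ℤ, (n : ℂ) ∈ V := fun n => by simpa using V.toSubring.intCast_mem n
  have hn : (e : ℂ) ∉ V.nonunits := by
    intro hin
    obtain ⟨hp1, hp2⟩ := ValuationSubring.mem_nonunits_iff_exists_mem_maximalIdeal.mp hpV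
    obtain ⟨he1, he2⟩ := ValuationSubring.mem_nonunits_iff_exists_mem_maximalIdeal.mp hin
    have hbez : (p : ℤ) * Nat.gcdA p e + e * Nat.gcdB p e = 1 := by
      have := Nat.gcd_eq_gcd_ab p e
      rw [hcop] at this
      push_cast at this
      exact this.symm
    have h1 : (⟨(Nat.gcdA p e : ℂ), hint _⟩ : V) * ⟨(p : ℂ), hp1⟩ +
        (⟨(Nat.gcdB p e : ℂ), hint _⟩ : V) * ⟨(e : ℂ), he1⟩ ∈ IsLocalRing.maximalIdeal V :=
      Ideal.add_mem _ (Ideal.mul_mem_left _ _ hp2) (Ideal.mul_mem_left _ _ he2)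
    have h2 : (⟨(Nat.gcdA p e : ℂ), hint _⟩ : V) * ⟨(p : ℂ), hp1⟩ +
        (⟨(Nat.gcdB p e : ℂ), hint _⟩ : V) * ⟨(e : ℂ), he1⟩ = 1 := by
      apply Subtype.ext
      have : ((p : ℤ) * Nat.gcdA p e + e * Nat.gcdB p e : ℤ) = 1 := hbez
      have h3 : (((p : ℤ) * Nat.gcdA p e + e * Nat.gcdB p e : ℤ) : ℂ) = 1 := by
        rw [this]; simp
      push_cast at h3
      push_cast
      linear_combination h3
    rw [h2] at h1
    exact (IsLocalRing.maximalIdeal.isMaximal V).ne_top ((Ideal.eq_top_iff_one _).mpr h1)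
  exact (inv_mem_of_not_nonunits (hnat e) hn).2

section Main

variable {V : ValuationSubring ℂ} {P E : Subgroup G} [Fintype P] [Fintype E]
  (ρ : Representation ℂ G W)

/-- No eigenvectors if the trace vanishes. -/
theorem eig_eq_zero (hnorm : ∀ x ∈ E, ∀ y ∈ P, x * y * x⁻¹ ∈ P) {θ : E →* ℂˣ}
    (h : bet P E θ ρ.character 1 = 0) {v : W} (hv : IsEig ρ P E θ v) : v = 0 := by
  classical
  set n : ℂ := ((Fintype.card P * Fintype.card E : ℕ) : ℂ) with hn
  have hn0 : n ≠ 0 := card_ne P E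
  let π : Module.End ℂ W := n⁻¹ • piOp P E θ ρ
  have hπ : ∀ w, π w = n⁻¹ • piOp P E θ ρ w := fun w => rfl
  have hproj : LinearMap.IsProj (eigSub ρ P E θ) π := by
    constructor
    · intro w
      exact (eigSub ρ P E θ).smul_mem _ (isEig_piOp θ hnorm ρ w)
    · intro w hw
      rw [hπ, piOp_eig θ hnorm ρ hw, smul_smul, inv_mul_cancel₀ hn0, one_smul]
  have htr : LinearMap.trace ℂ W π = 0 := by
    have h2 := trace_piOp_comp (P := P) θ ρ 1
    rw [map_one, mul_one, h] at h2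
    change LinearMap.trace ℂ W (n⁻¹ • piOp P E θ ρ) = 0
    rw [map_smul, h2, smul_zero]
  have hfin : finrank ℂ (eigSub ρ P E θ) = 0 := by
    have h2 := hproj.trace
    rw [htr] at h2
    exact_mod_cast h2.symm
  have h3 := Submodule.finrank_eq_zero.mp hfin
  have h4 : v ∈ eigSub ρ P E θ := hv
  rw [h3] at h4
  simpa using h4

variable {n : ℕ} {b : Basis (Fin n) ℂ W}

/-- A unit value gives a trace. -/
theorem trace_of_unit (hnorm : ∀ x ∈ E, ∀ y ∈ P, x * y * x⁻¹ ∈ P)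
    (hb : ∀ (g : G) (i j : Fin n), b.repr (ρ g (b j)) i ∈ V) {θ : E →* ℂˣ}
    (h1 : bet P E θ ρ.character 1 = ((Fintype.card P * Fintype.card E : ℕ) : ℂ)) {g : G}
    (h : bet P E θ ρ.character g ≠ 0) (h' : (bet P E θ ρ.character g)⁻¹ ∈ V) {v : W}
    (hvL : v ∈ latt V b) (hv : IsEig ρ P E θ v) : ∃ w ∈ latt V b, v = ∑ y : P, ρ (y : G) w := by
  classical
  by_cases hv0 : v = 0
  · refine ⟨0, AddSubgroup.zero_mem _, ?_⟩
    simp [hv0]
  have h2 := piOp_rho_eig θ hnorm ρ h1 hv hv0 g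
  rw [piOp_eq_trace] at h2
  set β := bet P E θ ρ.character g with hβ
  refine ⟨β⁻¹ • ∑ x : E, tb θ x • ρ (x : G) (ρ g v), ?_, ?_⟩
  · apply smul_mem_latt V b h'
    exact AddSubgroup.sum_mem _ fun x _ =>
      smul_mem_latt V b (tb_mem V θ x) (rho_mem_latt V b ρ hb _ (rho_mem_latt V b ρ hb _ hvL))
  · simp only [map_smul]
    rw [← Finset.smul_sum, h2, smul_smul, inv_mul_cancel₀ h, one_smul]

/-- All fixed lattice vectors are traces, hence the inequality. -/
theorem fix_ineq {p : ℕ} [hp : Fact p.Prime] (hpV : (p : ℂ) ∈ V.nonunits) (hP : IsPGroup p P)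
    (hnorm : ∀ x ∈ E, ∀ y ∈ P, x * y * x⁻¹ ∈ P) (hcomm : ∀ a c : E, a * c = c * a)
    (hE : ((Fintype.card E : ℕ) : ℂ)⁻¹ ∈ V)
    (hb : ∀ (g : G) (i j : Fin n), b.repr (ρ g (b j)) i ∈ V)
    (htr : ∀ (θ : E →* ℂˣ) (v : W), v ∈ latt V b → IsEig ρ P E θ v → ∃ w ∈ latt V b, v = ∑ y : P, ρ (y : G) w) :
    Fintype.card P * fixDim ρ P ≤ finrank ℂ W := by
  classical
  have h1 := card_mul_finrank_le V hpV hP (MonoidHom.comp ρ P.subtype) b
    (fun g i j => hb (g : G) i j) (Representation.invariants (MonoidHom.comp ρ P.subtype))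
    (by
      intro v hv hvL
      have hv' : ∀ y ∈ P, ρ y v = v := fun y hy => hv ⟨y, hy⟩
      obtain ⟨w, hw, hvw⟩ := exists_trace_of_fixed ρ hnorm hcomm hE hb htr hvL hv'
      exact ⟨w, hw, hvw⟩)
  rw [finrank_eq_card_basis b, Fintype.card_fin]
  exact h1

/-- The main inequality for an irreducible representation all of whose eigentypes have integral
partners. -/
theorem main_ineq {p : ℕ} [hp : Fact p.Prime] (hpV : (p : ℂ) ∈ V.nonunits) (hP : IsPGroup p P)
    (hnorm : ∀ x ∈ E, ∀ y ∈ P, x * y * x⁻¹ ∈ P) (hcomm : ∀ a c : E, a * c = c * a)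
    (hE : ((Fintype.card E : ℕ) : ℂ)⁻¹ ∈ V) (N : Subgroup G) (hN : N = P ⊔ E)
    (hfree : ∀ g : G, g ∉ N → ∀ h ∈ P, g⁻¹ * h * g ∈ N → h = 1) (hρ : ρ.IsIrreducible)
    (hpart : ∀ θ : E →* ℂˣ, ∃ ξ : G → ℂ, IsClassFunction G ξ ∧
      bet P E θ ξ 1 = ((Fintype.card P * Fintype.card E : ℕ) : ℂ) ∧
      (∀ g, bet P E θ ξ g / ((Fintype.card P * Fintype.card E : ℕ) : ℂ) ∈ V) ∧
      classInner ξ ρ.character = 0) :
    Fintype.card P * fixDim ρ P ≤ finrank ℂ W := by
  classical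
  obtain ⟨n, b, hb⟩ := exists_integral_basis V ρ
  refine fix_ineq ρ hpV hP hnorm hcomm hE hb ?_
  intro θ v hvL hv
  obtain ⟨ξ, hξ, h1, hV, hin⟩ := hpart θ
  exact exists_trace_of_eig ρ hnorm N hN hfree hb θ hξ h1 hV
    (convOp_eq_zero_of_inner hξ ρ hρ hin) hvL hv

/-- Integrality of `bet`. -/
theorem bet_div_mem {p : ℕ} [hp : Fact p.Prime] (hpV : (p : ℂ) ∈ V.nonunits) (hPcard : Fintype.card P = p)
    (hP : IsPGroup p P) (hnorm : ∀ x ∈ E, ∀ y ∈ P, x * y * x⁻¹ ∈ P) (hcomm : ∀ a c : E, a * c = c * a)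
    (hcop : Nat.Coprime p (Fintype.card E))
    (hfix : fixDim ρ P = 2) (hdeg : finrank ℂ W < 2 * p) {θ₁ θ₂ : E →* ℂˣ}
    (h1 : bet P E θ₁ ρ.character 1 = ((Fintype.card P * Fintype.card E : ℕ) : ℂ))
    (h2 : bet P E θ₂ ρ.character 1 = ((Fintype.card P * Fintype.card E : ℕ) : ℂ))
    (h0 : ∀ l : E →* ℂˣ, l ≠ θ₁ → l ≠ θ₂ → bet P E l ρ.character 1 = 0)
    (hRz : ∀ g, bet P E θ₁ ρ.character g ∈ Rz (Fintype.card E))
    (hsw : ∀ g, bet P E θ₂ ρ.character g⁻¹ = bet P E θ₁ ρ.character g) (g : G) :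
    bet P E θ₁ ρ.character g / ((Fintype.card P * Fintype.card E : ℕ) : ℂ) ∈ V := by
  classical
  have he : Fintype.card E ≠ 0 := Fintype.card_ne_zero
  have hE : ((Fintype.card E : ℕ) : ℂ)⁻¹ ∈ V := inv_natCast_mem hp.out hpV hcop
  have hβV : bet P E θ₁ ρ.character g ∈ V := Rz_le V he (hRz g)
  have hnon : bet P E θ₁ ρ.character g ∈ V.nonunits := by
    by_contra hn
    obtain ⟨h3, h4⟩ := inv_mem_of_not_nonunits hβV hn
    obtain ⟨n, b, hb⟩ := exists_integral_basis V ρ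
    have hineq := fix_ineq (b := b) ρ hpV hP hnorm hcomm hE hb (by
      intro l v hvL hv
      by_cases hl1 : l = θ₁
      · subst hl1
        exact trace_of_unit ρ hnorm hb h1 h3 h4 hvL hv
      by_cases hl2 : l = θ₂
      · subst hl2
        have h5 : bet P E l ρ.character g⁻¹ ≠ 0 := by rw [hsw]; exact h3
        have h6 : (bet P E l ρ.character g⁻¹)⁻¹ ∈ V := by rw [hsw]; exact h4
        exact trace_of_unit ρ hnorm hb h2 h5 h6 hvL hv
      · have h5 := eig_eq_zero ρ hnorm (h0 l hl1 hl2) hv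
        refine ⟨0, AddSubgroup.zero_mem _, ?_⟩
        simp [h5])
    rw [hfix, hPcard] at hineq
    omega
  have h5 := div_mem_of_nonunit he hcop hpV (hRz g) hnon
  have h6 : bet P E θ₁ ρ.character g / ((Fintype.card P * Fintype.card E : ℕ) : ℂ) =
      bet P E θ₁ ρ.character g / p * ((Fintype.card E : ℕ) : ℂ)⁻¹ := by
    rw [hPcard]
    push_cast
    rw [div_mul_eq_div_div, div_eq_mul_inv (_ / _)]
  rw [h6]
  exact V.mul_mem _ _ h5 hE

end Main

end Cfsg.Agent.Lib.Perm7.Integ
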