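import Cfsg.Agent.Lib.Perm7.Lat
import Cfsg.Agent.Lib.Char.Complete
import Cfsg.Agent.Lib.ModRep.AbFrob

/-!
# Labels: eigenvectors of `P E` in lattices

`P`, `E` subgroups of `G`, `E` normalizing `P`, `θ` a linear character of `E`.
`bet ξ P E θ g = ∑_{x, y} θ̄(x) ξ(g y x)`.
-/

set_option autoImplicit false
set_option linter.unusedSectionVars false
set_option linter.style.haveILetI false

namespace Cfsg.Agent.Lib.Perm7.Label

open scoped BigOperators
open Module Cfsg Cfsg.Agent.Lib.Perm7.Lat Cfsg.Agent.Lib.ModTI.Integral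
open Cfsg.Agent.Lib.Char.Complete Cfsg.Agent.Lib.Char.Ortho Cfsg.Agent.Lib.Char.Basic

universe u v

variable {G : Type u} [Group G] {W : Type v} [AddCommGroup W] [Module ℂ W]

/-- The `θ`-eigenvectors. -/
def IsEig (ρ : Representation ℂ G W) (P E : Subgroup G) (θ : E →* ℂˣ) (v : W) : Prop :=
  (∀ y ∈ P, ρ y v = v) ∧ ∀ x : E, ρ x v = ((θ x : ℂˣ) : ℂ) • v

/-- The conjugate value. -/
noncomputable abbrev tb {P : Type*} [Group P] (θ : P →* ℂˣ) (x : P) : ℂ := (((θ x)⁻¹ : ℂˣ) : ℂ)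

theorem cf_comm {ξ : G → ℂ} (hξ : IsClassFunction G ξ) (a b : G) : ξ (a * b) = ξ (b * a) := by
  have := hξ (b * a) a
  rwa [show a * (b * a) * a⁻¹ = a * b by group] at this

theorem tb_mul {P : Type*} [Group P] (θ : P →* ℂˣ) (a b : P) : tb θ (a * b) = tb θ a * tb θ b := by
  simp [tb, mul_comm]

theorem tb_inv {P : Type*} [Group P] (θ : P →* ℂˣ) (a : P) : tb θ a⁻¹ = ((θ a : ℂˣ) : ℂ) := by
  simp [tb]

theorem tb_mul_self {P : Type*} [Group P] (θ : P →* ℂˣ) (a : P) : tb θ a * ((θ a : ℂˣ) : ℂ) = 1 := by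
  simp [tb]

theorem self_mul_tb {P : Type*} [Group P] (θ : P →* ℂˣ) (a : P) : ((θ a : ℂˣ) : ℂ) * tb θ a = 1 := by
  simp [tb]

theorem card_ne (P E : Subgroup G) [Fintype P] [Fintype E] :
    ((Fintype.card P * Fintype.card E : ℕ) : ℂ) ≠ 0 := by
  exact_mod_cast (Nat.mul_ne_zero Fintype.card_ne_zero Fintype.card_ne_zero)

section Sums

variable (P E : Subgroup G) [Fintype P] [Fintype E] (θ : E →* ℂˣ)

/-- The twisted double sum. -/
noncomputable def bet (ξ : G → ℂ) (g : G) : ℂ :=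
  ∑ x : E, ∑ y : P, tb θ x * ξ (g * y * x)

/-- The twisted double operator. -/
noncomputable def piOp (ρ : Representation ℂ G W) : Module.End ℂ W :=
  ∑ x : E, ∑ y : P, tb θ x • ρ ((y : G) * x)

theorem piOp_apply (ρ : Representation ℂ G W) (w : W) :
    piOp P E θ ρ w = ∑ x : E, ∑ y : P, tb θ x • ρ ((y : G) * x) w := by
  simp [piOp, LinearMap.sum_apply]

variable {P E}

/-- Rule: right multiplication by `y₀ ∈ P`. -/
theorem bet_mul_P (ξ : G → ℂ) (g : G) {y₀ : G} (hy₀ : y₀ ∈ P) :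
    bet P E θ ξ (g * y₀) = bet P E θ ξ g := by
  unfold bet
  refine Finset.sum_congr rfl fun x _ => ?_
  rw [← Equiv.sum_comp (Equiv.mulLeft (⟨y₀, hy₀⟩ : P)⁻¹)]
  refine Finset.sum_congr rfl fun y _ => ?_
  congr 2
  simp [mul_assoc]

/-- Rule: left multiplication by `y₀ ∈ P`. -/
theorem bet_P_mul (hnorm : ∀ x ∈ E, ∀ y ∈ P, x * y * x⁻¹ ∈ P) {ξ : G → ℂ} (hξ : IsClassFunction G ξ)
    (g : G) {y₀ : G} (hy₀ : y₀ ∈ P) :
    bet P E θ ξ (y₀ * g) = bet P E θ ξ g := by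
  unfold bet
  refine Finset.sum_congr rfl fun x _ => ?_
  have hz : (x : G) * y₀⁻¹ * (x : G)⁻¹ ∈ P := hnorm x x.2 _ (P.inv_mem hy₀)
  rw [← Equiv.sum_comp (Equiv.mulRight (⟨_, hz⟩ : P))]
  refine Finset.sum_congr rfl fun y _ => ?_
  congr 1
  rw [← hξ (g * y * x) y₀]
  congr 1
  simp only [Equiv.coe_mulRight, Subgroup.coe_mul]
  group

/-- Rule: left multiplication by `x₀ ∈ E`. -/
theorem bet_E_mul {ξ : G → ℂ} (hξ : IsClassFunction G ξ) (g : G) (x₀ : E) :
    bet P E θ ξ (x₀ * g) = ((θ x₀ : ℂˣ) : ℂ) * bet P E θ ξ g := by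
  unfold bet
  rw [Finset.mul_sum, ← Equiv.sum_comp (Equiv.mulRight x₀⁻¹)]
  refine Finset.sum_congr rfl fun x _ => ?_
  rw [Finset.mul_sum]
  refine Finset.sum_congr rfl fun y _ => ?_
  simp only [Equiv.coe_mulRight]
  rw [tb_mul, tb_inv, ← hξ (g * y * x) x₀, ← mul_assoc, mul_comm (tb θ x)]
  congr 2
  simp only [Subgroup.coe_mul, Subgroup.coe_inv]
  group

variable (hnorm : ∀ x ∈ E, ∀ y ∈ P, x * y * x⁻¹ ∈ P)
include hnorm

/-- Conjugation by `x ∈ E` as a permutation of `P`. -/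
def conjP (x : E) : P ≃ P where
  toFun y := ⟨(x : G) * y * (x : G)⁻¹, hnorm x x.2 y y.2⟩
  invFun y := ⟨(x : G)⁻¹ * y * x, by
    have := hnorm (x : G)⁻¹ (E.inv_mem x.2) y y.2
    simpa using this⟩
  left_inv y := by
    apply Subtype.ext
    simp [mul_assoc]
  right_inv y := by
    apply Subtype.ext
    simp [mul_assoc]

/-- `piOp w` is an eigenvector. -/
theorem isEig_piOp (ρ : Representation ℂ G W) (w : W) : IsEig ρ P E θ (piOp P E θ ρ w) := by
  constructor
  · intro y₀ hy₀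
    rw [piOp_apply, map_sum]
    refine Finset.sum_congr rfl fun x _ => ?_
    rw [map_sum, ← Equiv.sum_comp (Equiv.mulLeft (⟨y₀, hy₀⟩ : P)⁻¹)]
    refine Finset.sum_congr rfl fun y _ => ?_
    rw [map_smul]
    congr 1
    rw [← Module.End.mul_apply, ← map_mul]
    simp [mul_assoc]
  · intro x₀
    rw [piOp_apply, map_sum, Finset.smul_sum, ← Equiv.sum_comp (Equiv.mulLeft x₀⁻¹)]
    refine Finset.sum_congr rfl fun x _ => ?_
    rw [map_sum, Finset.smul_sum, ← Equiv.sum_comp (conjP hnorm x₀⁻¹)]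
    refine Finset.sum_congr rfl fun y _ => ?_
    rw [map_smul, smul_smul]
    simp only [Equiv.coe_mulLeft]
    have h1 : ρ x₀ (ρ (((conjP hnorm x₀⁻¹ y : P) : G) * ((x₀⁻¹ * x : E) : G)) w) = ρ ((y : G) * x) w := by
      rw [← Module.End.mul_apply, ← map_mul]
      congr 2
      simp only [conjP, Equiv.coe_fn_mk, Subgroup.coe_mul, Subgroup.coe_inv]
      group
    rw [h1, tb_mul, tb_inv]

/-- The operator on an eigenvector. -/
theorem piOp_eig (ρ : Representation ℂ G W) {v : W} (hv : IsEig ρ P E θ v) :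
    piOp P E θ ρ v = ((Fintype.card P * Fintype.card E : ℕ) : ℂ) • v := by
  rw [piOp_apply]
  have h1 : ∀ (x : E) (y : P), tb θ x • ρ ((y : G) * x) v = v := by
    intro x y
    rw [map_mul, Module.End.mul_apply, hv.2 x, map_smul, hv.1 y y.2, smul_smul, tb_mul_self, one_smul]
  simp only [h1]
  simp only [Finset.sum_const, Finset.card_univ, ← Nat.cast_smul_eq_nsmul ℂ, smul_smul]
  congr 1
  push_cast
  ring

omit hnorm in
/-- The trace of `piOp ∘ ρ g`. -/
theorem trace_piOp_comp [FiniteDimensional ℂ W] (ρ : Representation ℂ G W) (g : G) :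
    LinearMap.trace ℂ W (piOp P E θ ρ * ρ g) = bet P E θ ρ.character g := by
  unfold piOp bet
  rw [Finset.sum_mul, map_sum]
  refine Finset.sum_congr rfl fun x _ => ?_
  rw [Finset.sum_mul, map_sum]
  refine Finset.sum_congr rfl fun y _ => ?_
  rw [smul_mul_assoc, map_smul, smul_eq_mul, ← map_mul]
  congr 1
  change ρ.character (((y : G) * x) * g) = _
  rw [Representation.char_mul_comm, mul_assoc]

omit hnorm in
/-- The eigenspace. -/
def eigSub (ρ : Representation ℂ G W) (P E : Subgroup G) (θ : E →* ℂˣ) : Submodule ℂ W where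
  carrier := {v | IsEig ρ P E θ v}
  add_mem' := by
    intro a b ha hb
    exact ⟨fun y hy => by rw [map_add, ha.1 y hy, hb.1 y hy],
      fun x => by rw [map_add, ha.2 x, hb.2 x, smul_add]⟩
  zero_mem' := ⟨fun y _ => map_zero _, fun x => by simp⟩
  smul_mem' := by
    intro c a ha
    exact ⟨fun y hy => by rw [map_smul, ha.1 y hy],
      fun x => by rw [map_smul, ha.2 x, smul_comm]⟩

/-- The rank one formula. -/
theorem piOp_rho_eig [FiniteDimensional ℂ W] (ρ : Representation ℂ G W)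
    (h1 : bet P E θ ρ.character 1 = ((Fintype.card P * Fintype.card E : ℕ) : ℂ))
    {v : W} (hv : IsEig ρ P E θ v) (hv0 : v ≠ 0) (g : G) :
    piOp P E θ ρ (ρ g v) = bet P E θ ρ.character g • v := by
  classical
  set n : ℂ := ((Fintype.card P * Fintype.card E : ℕ) : ℂ) with hn
  have hn0 : n ≠ 0 := card_ne P E
  let π : Module.End ℂ W := n⁻¹ • piOp P E θ ρ
  have hπ : ∀ w, π w = n⁻¹ • piOp P E θ ρ w := fun w => rfl
  have hproj : LinearMap.IsProj (eigSub ρ P E θ) π := by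
    constructor
    · intro w
      exact (eigSub ρ P E θ).smul_mem _ (isEig_piOp θ hnorm ρ w)
    · intro w hw
      rw [hπ, piOp_eig θ hnorm ρ hw, smul_smul, inv_mul_cancel₀ hn0, one_smul]
  have htr : LinearMap.trace ℂ W π = 1 := by
    have h2 := trace_piOp_comp (P := P) θ ρ 1
    rw [map_one, mul_one, h1] at h2
    change LinearMap.trace ℂ W (n⁻¹ • piOp P E θ ρ) = 1
    rw [map_smul, h2, smul_eq_mul, inv_mul_cancel₀ hn0]
  have hfin : finrank ℂ (eigSub ρ P E θ) = 1 := by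
    have h2 := hproj.trace
    rw [htr] at h2
    exact_mod_cast h2.symm
  have hspan : ∀ w ∈ eigSub ρ P E θ, ∃ c : ℂ, w = c • v := by
    intro w hw
    have h3 := (finrank_eq_one_iff_of_nonzero' (⟨v, hv⟩ : eigSub ρ P E θ)
      (by
        intro h
        exact hv0 (congrArg Subtype.val h))).mp hfin ⟨w, hw⟩
    obtain ⟨c, hc⟩ := h3
    exact ⟨c, (congrArg Subtype.val hc).symm⟩
  obtain ⟨ℓ₀, hℓ₀⟩ : ∃ ℓ : Module.Dual ℂ W, ℓ v = 1 := by
    have h3 : ¬ ∀ f : Module.Dual ℂ W, f v = 0 := by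
      intro h
      exact hv0 ((Module.forall_dual_apply_eq_zero_iff ℂ v).mp h)
    push Not at h3
    obtain ⟨f, hf⟩ := h3
    exact ⟨(f v)⁻¹ • f, by simp [hf]⟩
  let φ : W →ₗ[ℂ] ℂ := ℓ₀ ∘ₗ π
  have hφ : ∀ w, π w = φ w • v := by
    intro w
    obtain ⟨c, hc⟩ := hspan (π w) (hproj.map_mem w)
    have : φ w = c := by
      change ℓ₀ (π w) = c
      rw [hc, map_smul, hℓ₀, smul_eq_mul, mul_one]
    rw [this, hc]
  have hcomp : π * ρ g = (φ ∘ₗ ρ g).smulRight v := by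
    ext w
    simp only [Module.End.mul_apply, LinearMap.smulRight_apply, LinearMap.comp_apply]
    exact hφ _
  have htr2 : LinearMap.trace ℂ W (π * ρ g) = φ (ρ g v) := by
    rw [hcomp, LinearMap.trace_smulRight]
    rfl
  have h3 : LinearMap.trace ℂ W (π * ρ g) = n⁻¹ * bet P E θ ρ.character g := by
    change LinearMap.trace ℂ W ((n⁻¹ • piOp P E θ ρ) * ρ g) = _
    rw [smul_mul_assoc, map_smul, trace_piOp_comp, smul_eq_mul]
  have h4 : piOp P E θ ρ (ρ g v) = n • π (ρ g v) := by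
    rw [hπ, smul_smul, mul_inv_cancel₀ hn0, one_smul]
  rw [h4, hφ, ← htr2, h3, smul_smul, mul_inv_cancel_left₀ hn0]

omit hnorm in
/-- Splitting `piOp`. -/
theorem piOp_eq_trace (ρ : Representation ℂ G W) (w : W) :
    piOp P E θ ρ w = ∑ y : P, ρ (y : G) (∑ x : E, tb θ x • ρ (x : G) w) := by
  rw [piOp_apply, Finset.sum_comm]
  refine Finset.sum_congr rfl fun y _ => ?_
  rw [map_sum]
  refine Finset.sum_congr rfl fun x _ => ?_
  rw [map_mul, Module.End.mul_apply, map_smul]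

omit hnorm in
/-- The sum of the translates weighted with `bet`. -/
theorem sum_bet_smul [Fintype G] (ρ : Representation ℂ G W) (ξ : G → ℂ) (w : W) :
    ∑ g : G, bet P E θ ξ g⁻¹ • ρ g w = piOp P E θ ρ (convOp ξ ρ w) := by
  classical
  rw [piOp_apply]
  unfold bet
  simp only [Finset.sum_smul]
  rw [Finset.sum_comm]
  refine Finset.sum_congr rfl fun x _ => ?_
  rw [Finset.sum_comm]
  refine Finset.sum_congr rfl fun y _ => ?_
  rw [convOp_apply, map_sum, Finset.smul_sum]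
  rw [← Equiv.sum_comp (Equiv.mulLeft ((y : G) * x))]
  rw [← Equiv.sum_comp (Equiv.inv G) (fun g => tb θ x • ρ ((y : G) * x) (ξ g • ρ g⁻¹ w))]
  refine Finset.sum_congr rfl fun h _ => ?_
  simp only [Equiv.coe_mulLeft, Equiv.inv_apply, inv_inv, mul_inv_rev, map_smul, smul_smul]
  rw [map_mul, Module.End.mul_apply]
  congr 2
  simp only [mul_assoc]
  group

end Sums

section Integral

variable (V : ValuationSubring ℂ)

/-- A root of unity lies in a valuation subring. -/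
theorem mem_of_pow_eq_one {z : ℂ} {n : ℕ} (hn : n ≠ 0) (hz : z ^ n = 1) : z ∈ V := by
  rcases V.mem_or_inv_mem z with h | h
  · exact h
  · obtain ⟨m, rfl⟩ : ∃ m, n = m + 1 := ⟨n - 1, by omega⟩
    have hz0 : z ≠ 0 := by
      rintro rfl
      simp at hz
    have : z = (z⁻¹) ^ m := by
      rw [inv_pow]
      apply eq_inv_of_mul_eq_one_left
      rw [← pow_succ', hz]
    rw [this]
    exact V.pow_mem h m

theorem tb_mem {P : Type*} [Group P] [Finite P] (θ : P →* ℂˣ) (x : P) : tb θ x ∈ V := by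
  have h0 : orderOf x⁻¹ ≠ 0 := (orderOf_pos _).ne'
  apply mem_of_pow_eq_one V h0
  change (((θ x)⁻¹ : ℂˣ) : ℂ) ^ orderOf x⁻¹ = 1
  rw [← map_inv, ← Units.val_pow_eq_pow_val, ← map_pow, pow_orderOf_eq_one, map_one, Units.val_one]

theorem val_mem {P : Type*} [Group P] [Finite P] (θ : P →* ℂˣ) (x : P) : ((θ x : ℂˣ) : ℂ) ∈ V := by
  have := tb_mem V θ x⁻¹
  rwa [tb_inv] at this

variable {n : ℕ} (b : Basis (Fin n) ℂ W)

/-- The lattice of a basis. -/
def latt : AddSubgroup W where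
  carrier := {w | ∀ i, b.repr w i ∈ V}
  add_mem' := by
    intro a c ha hc i
    rw [map_add]
    exact V.add_mem _ _ (ha i) (hc i)
  zero_mem' := by
    intro i
    rw [map_zero]
    exact V.zero_mem
  neg_mem' := by
    intro a ha i
    rw [map_neg]
    exact V.neg_mem _ (ha i)

theorem mem_latt {w : W} : w ∈ latt V b ↔ ∀ i, b.repr w i ∈ V := Iff.rfl

theorem smul_mem_latt {c : ℂ} (hc : c ∈ V) {w : W} (hw : w ∈ latt V b) : c • w ∈ latt V b := by
  intro i
  rw [map_smul]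
  exact V.mul_mem _ _ hc (hw i)

theorem rho_mem_latt (ρ : Representation ℂ G W) (hb : ∀ (g : G) (i j : Fin n), b.repr (ρ g (b j)) i ∈ V)
    (g : G) {w : W} (hw : w ∈ latt V b) : ρ g w ∈ latt V b := by
  intro i
  conv => rw [← b.sum_repr w]
  simp only [map_sum, map_smul, Finsupp.coe_finsetSum, Finset.sum_apply, Finsupp.smul_apply, smul_eq_mul]
  exact V.sum_mem fun j _ => V.mul_mem _ _ (hw j) (hb g i j)

end Integral

section Main

variable [Fintype G] {V : ValuationSubring ℂ} {P E : Subgroup G} [Fintype P] [Fintype E]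
  {n : ℕ} {b : Basis (Fin n) ℂ W} (ρ : Representation ℂ G W)

/-- The label theorem: an eigenvector in the lattice with an integral partner is a `P`-trace. -/
theorem exists_trace_of_eig (hnorm : ∀ x ∈ E, ∀ y ∈ P, x * y * x⁻¹ ∈ P)
    (N : Subgroup G) (hN : N = P ⊔ E)
    (hfree : ∀ g : G, g ∉ N → ∀ h ∈ P, g⁻¹ * h * g ∈ N → h = 1)
    (hb : ∀ (g : G) (i j : Fin n), b.repr (ρ g (b j)) i ∈ V) (θ : E →* ℂˣ)
    {ξ : G → ℂ} (hξ : IsClassFunction G ξ)
    (h1 : bet P E θ ξ 1 = ((Fintype.card P * Fintype.card E : ℕ) : ℂ))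
    (hV : ∀ g, bet P E θ ξ g / ((Fintype.card P * Fintype.card E : ℕ) : ℂ) ∈ V)
    (hconv : convOp ξ ρ = 0) {v : W} (hvL : v ∈ latt V b) (hv : IsEig ρ P E θ v) :
    ∃ w ∈ latt V b, v = ∑ y : P, ρ (y : G) w := by
  classical
  set m : ℂ := ((Fintype.card P * Fintype.card E : ℕ) : ℂ) with hm
  have hm0 : m ≠ 0 := card_ne P E
  let f : G → W := fun g => (bet P E θ ξ g⁻¹ / m) • ρ g v
  have hPN : P ≤ N := hN ▸ le_sup_left
  have hinv : ∀ t : G, (∀ g, f (g * t) = f g) → ∀ g, f (g * t⁻¹) = f g := by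
    intro t ht g
    have := ht (g * t⁻¹)
    rw [inv_mul_cancel_right] at this
    exact this.symm
  have hfN : ∀ g, ∀ t ∈ N, f (g * t) = f g := by
    intro g t ht
    rw [hN, Subgroup.sup_eq_closure] at ht
    induction ht using Subgroup.closure_induction generalizing g with
    | mem t ht =>
      rcases ht with ht | ht
      · change (bet P E θ ξ (g * t)⁻¹ / m) • ρ (g * t) v = (bet P E θ ξ g⁻¹ / m) • ρ g v
        rw [mul_inv_rev, bet_P_mul θ hnorm hξ _ (P.inv_mem ht), map_mul, Module.End.mul_apply, hv.1 t ht]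
      · change (bet P E θ ξ (g * t)⁻¹ / m) • ρ (g * t) v = (bet P E θ ξ g⁻¹ / m) • ρ g v
        have h2 := bet_E_mul (P := P) θ hξ g⁻¹ (⟨t, ht⟩ : E)⁻¹
        have h3 : ((((⟨t, ht⟩ : E)⁻¹ : E) : G)) * g⁻¹ = (g * t)⁻¹ := by simp
        rw [h3] at h2
        rw [h2, map_mul, Module.End.mul_apply, hv.2 ⟨t, ht⟩, map_smul, smul_smul]
        congr 1
        rw [mul_div_assoc, mul_comm, ← mul_assoc, map_inv, Units.val_inv_eq_inv_val]
        field_simp
    | one => simp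
    | mul a c _ _ iha ihc =>
      rw [← mul_assoc, ihc, iha]
    | inv a _ iha =>
      exact hinv a (fun g => iha g) g
  have hfP : ∀ h ∈ P, ∀ g, f (h * g) = ρ h (f g) := by
    intro h hh g
    change (bet P E θ ξ (h * g)⁻¹ / m) • ρ (h * g) v = ρ h ((bet P E θ ξ g⁻¹ / m) • ρ g v)
    rw [mul_inv_rev, bet_mul_P θ ξ _ (P.inv_mem hh), map_mul, Module.End.mul_apply, map_smul]
  have hfL : ∀ g, f g ∈ latt V b := fun g =>
    smul_mem_latt V b (hV _) (rho_mem_latt V b ρ hb g hvL)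
  have hsum : ∑ g, f g = 0 := by
    have h2 : ∑ g, f g = m⁻¹ • ∑ g : G, bet P E θ ξ g⁻¹ • ρ g v := by
      rw [Finset.smul_sum]
      refine Finset.sum_congr rfl fun g _ => ?_
      change (bet P E θ ξ g⁻¹ / m) • ρ g v = _
      rw [smul_smul, div_eq_inv_mul]
    rw [h2, sum_bet_smul, hconv]
    simp
  obtain ⟨w, hw, hfw⟩ := exists_trace_of_sum_zero ρ P N hPN hfree (latt V b)
    (fun g x hx => rho_mem_latt V b ρ hb g hx) f hfL hfN hfP hsum
  refine ⟨w, hw, ?_⟩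
  rw [← hfw]
  change v = (bet P E θ ξ 1⁻¹ / m) • ρ 1 v
  rw [inv_one, h1, div_self hm0, one_smul, map_one]
  rfl

/-- The decomposition of fixed vectors into eigenvectors. -/
theorem exists_trace_of_fixed (hnorm : ∀ x ∈ E, ∀ y ∈ P, x * y * x⁻¹ ∈ P)
    (hcomm : ∀ a c : E, a * c = c * a) (hE : ((Fintype.card E : ℕ) : ℂ)⁻¹ ∈ V)
    (hb : ∀ (g : G) (i j : Fin n), b.repr (ρ g (b j)) i ∈ V)
    (htr : ∀ (θ : E →* ℂˣ) (v : W), v ∈ latt V b → IsEig ρ P E θ v → ∃ w ∈ latt V b, v = ∑ y : P, ρ (y : G) w)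
    {v : W} (hvL : v ∈ latt V b) (hv : ∀ y ∈ P, ρ y v = v) :
    ∃ w ∈ latt V b, v = ∑ y : P, ρ (y : G) w := by
  classical
  haveI := Cfsg.Agent.Lib.ModRep.AbFrob.finite_hom hcomm
  letI : Fintype (E →* ℂˣ) := Fintype.ofFinite _
  have he0 : ((Fintype.card E : ℕ) : ℂ) ≠ 0 := by exact_mod_cast Fintype.card_ne_zero
  -- the pieces
  let pc : (E →* ℂˣ) → W := fun θ => ((Fintype.card E : ℕ) : ℂ)⁻¹ • ∑ x : E, tb θ x • ρ (x : G) v
  have hpcL : ∀ θ, pc θ ∈ latt V b := by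
    intro θ
    apply smul_mem_latt V b hE
    exact AddSubgroup.sum_mem _ fun x _ => smul_mem_latt V b (tb_mem V θ x) (rho_mem_latt V b ρ hb x hvL)
  have hpcE : ∀ θ, IsEig ρ P E θ (pc θ) := by
    intro θ
    constructor
    · intro y hy
      change ρ y (((Fintype.card E : ℕ) : ℂ)⁻¹ • ∑ x : E, tb θ x • ρ (x : G) v) = _
      rw [map_smul, map_sum]
      congr 1
      refine Finset.sum_congr rfl fun x _ => ?_
      rw [map_smul]
      congr 1
      have h1 : (x : G)⁻¹ * y * x ∈ P := by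
        have := hnorm (x : G)⁻¹ (E.inv_mem x.2) y hy
        simpa using this
      have h2 : y * (x : G) = x * ((x : G)⁻¹ * y * x) := by group
      rw [← Module.End.mul_apply, ← map_mul, h2, map_mul, Module.End.mul_apply, hv _ h1]
    · intro x₀
      change ρ x₀ (((Fintype.card E : ℕ) : ℂ)⁻¹ • ∑ x : E, tb θ x • ρ (x : G) v) =
        ((θ x₀ : ℂˣ) : ℂ) • (((Fintype.card E : ℕ) : ℂ)⁻¹ • ∑ x : E, tb θ x • ρ (x : G) v)
      rw [map_smul, map_sum, smul_comm]
      congr 1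
      rw [Finset.smul_sum, ← Equiv.sum_comp (Equiv.mulLeft x₀⁻¹)]
      refine Finset.sum_congr rfl fun x _ => ?_
      simp only [Equiv.coe_mulLeft]
      rw [map_smul, smul_smul, tb_mul, tb_inv, ← Module.End.mul_apply, ← map_mul, mul_comm (((θ x₀ : ℂˣ) : ℂ))]
      simp
  have hsum : ∑ θ, pc θ = v := by
    have h1 : ∀ x : E, ∑ θ : E →* ℂˣ, tb θ x = if x = 1 then ((Fintype.card E : ℕ) : ℂ) else 0 := by
      intro x
      have h2 := Cfsg.Agent.Lib.ModRep.AbFrob.sum_hom hcomm x⁻¹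
      have h3 : ∀ θ : E →* ℂˣ, ((θ x⁻¹ : ℂˣ) : ℂ) = tb θ x := fun θ => by rw [map_inv]
      simp only [h3] at h2
      rw [h2, Nat.card_eq_fintype_card]
      simp only [inv_eq_one]
    have h4 : ∑ θ, pc θ = ((Fintype.card E : ℕ) : ℂ)⁻¹ • ∑ x : E, (∑ θ : E →* ℂˣ, tb θ x) • ρ (x : G) v := by
      simp only [pc]
      rw [← Finset.smul_sum, Finset.sum_comm]
      simp only [Finset.sum_smul]
    rw [h4]
    simp only [h1]
    rw [Finset.sum_eq_single (1 : E)]
    · rw [if_pos rfl, smul_smul, inv_mul_cancel₀ he0, one_smul]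
      simp
    · intro x _ hx
      rw [if_neg hx, zero_smul]
    · simp
  choose w hwL hw using fun θ => htr θ (pc θ) (hpcL θ) (hpcE θ)
  refine ⟨∑ θ, w θ, AddSubgroup.sum_mem _ fun θ _ => hwL θ, ?_⟩
  conv_lhs => rw [← hsum]
  simp only [map_sum]
  rw [Finset.sum_comm]
  exact Finset.sum_congr rfl fun θ _ => hw θ

end Main

end Cfsg.Agent.Lib.Perm7.Label
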