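import Cfsg.Agent.Lib.ModTI.Integral

/-!
# Lattices over a valuation subring of `ℂ` and `P`-traces

`Lemma A`: if every `P`-fixed vector of a `ρ`-stable lattice is a `P`-trace, then
`|P| · dim W^P ≤ dim W`.
`Lemma B`: a free-action sum criterion for being a trace.
-/

set_option autoImplicit false

namespace Cfsg.Agent.Lib.Perm7.Lat

open scoped BigOperators
open Module Cfsg.Agent.Lib.ModTI.Integral Cfsg.Agent.Lib.ModTI.Trace

variable (V : ValuationSubring ℂ)

section Pure

variable {W : Type*} [AddCommGroup W] [Module ℂ W] {n : ℕ} (b : Basis (Fin n) ℂ W)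

/-- Pure bases: any subspace contains `r ≤ dim` vectors with integral coordinates and pivots. -/
theorem exists_pure (U : Submodule ℂ W) [FiniteDimensional ℂ U] (r : ℕ) (hr : r ≤ finrank ℂ U) :
    ∃ (u : Fin r → W) (s : Fin r → Fin n), (∀ i, u i ∈ U) ∧ (∀ i j, b.repr (u i) j ∈ V) ∧
      ∀ i j, b.repr (u i) (s j) = if i = j then 1 else 0 := by
  classical
  induction r with
  | zero => exact ⟨Fin.elim0, Fin.elim0, fun i => i.elim0, fun i => i.elim0, fun i => i.elim0⟩
  | succ r ih =>
    obtain ⟨u, s, huU, huV, hd⟩ := ih (by omega)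
    -- independence
    have hli : LinearIndependent ℂ u := by
      rw [Fintype.linearIndependent_iff]
      intro c hc j
      have h1 := congrArg (fun x => b.repr x (s j)) hc
      simp only [map_sum, map_smul, Finsupp.coe_finsetSum, Finset.sum_apply,
        Finsupp.smul_apply, smul_eq_mul, map_zero, Finsupp.coe_zero, Pi.zero_apply, hd] at h1
      simpa using h1
    -- a vector outside the span
    have hle : Submodule.span ℂ (Set.range u) ≤ U := by
      rw [Submodule.span_le]
      rintro _ ⟨i, rfl⟩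
      exact huU i
    have hspan : finrank ℂ (Submodule.span ℂ (Set.range u)) = r := by
      rw [finrank_span_eq_card hli, Fintype.card_fin]
    have hne : Submodule.span ℂ (Set.range u) ≠ U := by
      intro h
      rw [h] at hspan
      omega
    obtain ⟨w, hwU, hw⟩ : ∃ w ∈ U, w ∉ Submodule.span ℂ (Set.range u) :=
      SetLike.exists_of_lt (lt_of_le_of_ne hle hne)
    -- clear the pivots
    let w' : W := w - ∑ i, b.repr w (s i) • u i
    have hw'U : w' ∈ U := U.sub_mem hwU (U.sum_mem fun i _ => U.smul_mem _ (huU i))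
    have hw's : ∀ j, b.repr w' (s j) = 0 := by
      intro j
      simp only [w', map_sub, map_sum, map_smul, Finsupp.coe_sub, Pi.sub_apply,
        Finsupp.coe_finsetSum, Finset.sum_apply, Finsupp.smul_apply, smul_eq_mul, hd]
      simp
    have hw'0 : w' ≠ 0 := by
      intro h0
      apply hw
      have h1 : w = ∑ i, b.repr w (s i) • u i := sub_eq_zero.mp h0
      rw [h1]
      exact Submodule.sum_mem _ fun i _ => Submodule.smul_mem _ _ (Submodule.subset_span ⟨i, rfl⟩)
    have hex : ∃ i, b.repr w' i ≠ 0 := by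
      by_contra hcon
      push Not at hcon
      apply hw'0
      have : b.repr w' = 0 := Finsupp.ext hcon
      simpa using this
    obtain ⟨k, hk0, hk⟩ := exists_max_val V (fun i => b.repr w' i) hex
    let w'' : W := (b.repr w' k)⁻¹ • w'
    have hw''U : w'' ∈ U := U.smul_mem _ hw'U
    have hw''r : ∀ i, b.repr w'' i = b.repr w' i / b.repr w' k := by
      intro i
      simp only [w'', map_smul, Finsupp.smul_apply, smul_eq_mul]
      rw [div_eq_inv_mul]
    have hw''V : ∀ i, b.repr w'' i ∈ V := fun i => by rw [hw''r]; exact hk i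
    have hw''k : b.repr w'' k = 1 := by rw [hw''r]; exact div_self hk0
    have hw''s : ∀ j, b.repr w'' (s j) = 0 := fun j => by rw [hw''r, hw's, zero_div]
    -- the new family
    refine ⟨Fin.cons w'' (fun i => u i - b.repr (u i) k • w''), Fin.cons k s, ?_, ?_, ?_⟩
    · intro i
      refine Fin.cases ?_ (fun i => ?_) i
      · simpa using hw''U
      · simpa using U.sub_mem (huU i) (U.smul_mem _ hw''U)
    · intro i j
      refine Fin.cases ?_ (fun i => ?_) i
      · simpa using hw''V j
      · simp only [Fin.cons_succ, map_sub, map_smul, Finsupp.coe_sub, Pi.sub_apply,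
          Finsupp.smul_apply, smul_eq_mul]
        exact V.sub_mem (huV i j) (V.mul_mem _ _ (huV i k) (hw''V j))
    · intro i j
      refine Fin.cases ?_ (fun i => ?_) i <;> refine Fin.cases ?_ (fun j => ?_) j
      · simpa using hw''k
      · simpa [Fin.succ_ne_zero, (Fin.succ_ne_zero j).symm] using hw''s j
      · simp [hw''k, (Fin.succ_ne_zero i)]
      · simp [hw''s, hd, Fin.succ_inj]

end Pure

section LemmaA

variable {H W : Type*} [Group H] [Fintype H] [AddCommGroup W] [Module ℂ W] {n : ℕ}
  {p : ℕ} [hp : Fact p.Prime]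

/-- `Lemma A`. If every fixed vector of the lattice is a trace, `|H| · dim W^H ≤ dim W`. -/
theorem card_mul_finrank_le (hpV : (p : ℂ) ∈ V.nonunits) (hH : IsPGroup p H)
    (ρ : Representation ℂ H W) (b : Basis (Fin n) ℂ W)
    (hb : ∀ (g : H) (i j : Fin n), b.repr (ρ g (b j)) i ∈ V)
    (U : Submodule ℂ W) [FiniteDimensional ℂ U]
    (htr : ∀ v ∈ U, (∀ i, b.repr v i ∈ V) → ∃ w : W, (∀ i, b.repr w i ∈ V) ∧ v = ∑ g, ρ g w) :
    Fintype.card H * finrank ℂ U ≤ n := by
  classical
  obtain ⟨d, hddef⟩ : ∃ d, d = finrank ℂ U := ⟨_, rfl⟩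
  rw [← hddef]
  obtain ⟨u, s, huU, huV, hd⟩ := exists_pure V b U d hddef.le
  choose w hwV hw using fun i => htr (u i) (huU i) (huV i)
  -- the residue field
  let k := IsLocalRing.ResidueField V
  let res : V →+* k := IsLocalRing.residue V
  haveI hchar : CharP k p := by
    rw [CharP.charP_iff_prime_eq_zero (Fact.out : p.Prime)]
    obtain ⟨h2, h3⟩ := ValuationSubring.mem_nonunits_iff_exists_mem_maximalIdeal.mp hpV
    have h4 : ((p : ℕ) : V) = ⟨(p : ℂ), h2⟩ := by
      apply Subtype.ext
      simp
    have h5 : res ((p : ℕ) : V) = 0 := by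
      rw [h4]
      exact (IsLocalRing.residue_eq_zero_iff _).mpr h3
    rw [map_natCast] at h5
    exact h5
  -- matrices over V
  let τ : H → Matrix (Fin n) (Fin n) V := fun g => Matrix.of fun i j => ⟨b.repr (ρ g (b j)) i, hb g i j⟩
  -- coordinates
  let cd : W → Fin n → ℂ := fun x i => b.repr x i
  have hcdsum : ∀ (x : W) (i : Fin n), (x = ∑ j, b.repr x j • b j) := fun x _ => (b.sum_repr x).symm
  have hτ : ∀ (g : H) (z : W) (hz : ∀ i, b.repr z i ∈ V) (i : Fin n),
      b.repr (ρ g z) i = (((τ g).mulVec (fun j => ⟨b.repr z j, hz j⟩)) i : V) := by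
    intro g z hz i
    conv_lhs => rw [← b.sum_repr z]
    simp only [map_sum, map_smul, Finsupp.coe_finsetSum, Finset.sum_apply,
      Finsupp.smul_apply, smul_eq_mul, Matrix.mulVec, dotProduct, AddSubmonoidClass.coe_finsetSum]
    refine Finset.sum_congr rfl fun j _ => ?_
    change _ = b.repr (ρ g (b j)) i * b.repr z j
    exact mul_comm _ _
  let T : H → Matrix (Fin n) (Fin n) k := fun g => (τ g).map res
  have hτone : τ 1 = 1 := by
    ext i j
    simp [τ, Matrix.one_apply, Finsupp.single_apply, eq_comm]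
    split_ifs <;> rfl
  have hτmul : ∀ g h, τ (g * h) = τ g * τ h := by
    intro g h
    ext i j
    have h1 := hτ g (ρ h (b j)) (fun i' => hb h i' j) i
    have h2 : ((τ (g * h)) i j : ℂ) = b.repr (ρ g (ρ h (b j))) i := by
      change b.repr (ρ (g * h) (b j)) i = _
      rw [map_mul]; rfl
    rw [h2, h1]
    rfl
  have hT1 : T 1 = 1 := by
    change (τ 1).map res = 1
    rw [hτone, Matrix.map_one _ (map_zero res) (map_one res)]
  have hTm : ∀ a c, T (a * c) = T a * T c := by
    intro a c
    change (τ (a * c)).map res = _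
    rw [hτmul, Matrix.map_mul]
  -- reductions
  let wb : Fin d → Fin n → k := fun i j => res ⟨b.repr (w i) j, hwV i j⟩
  let ub : Fin d → Fin n → k := fun i j => res ⟨b.repr (u i) j, huV i j⟩
  let Wv : H → Fin d → Fin n → k := fun g i => (T g).mulVec (wb i)
  have hWv : ∀ g i j, Wv g i j = res ⟨b.repr (ρ g (w i)) j, by
      rw [hτ g (w i) (hwV i) j]; exact Subtype.property _⟩ := by
    intro g i j
    have h1 := RingHom.map_mulVec res (τ g) (fun j => ⟨b.repr (w i) j, hwV i j⟩) j
    have h2 : (⟨b.repr (ρ g (w i)) j, by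
        rw [hτ g (w i) (hwV i) j]; exact Subtype.property _⟩ : V) =
        (τ g).mulVec (fun j => ⟨b.repr (w i) j, hwV i j⟩) j := Subtype.ext (hτ g (w i) (hwV i) j)
    rw [h2, h1]
    rfl
  have hsumW : ∀ i, ∑ g, Wv g i = ub i := by
    intro i
    ext j
    rw [Finset.sum_apply]
    simp only [hWv]
    rw [← map_sum]
    change _ = res ⟨b.repr (u i) j, huV i j⟩
    congr 1
    apply Subtype.ext
    push_cast
    conv_rhs => rw [hw i]
    simp [map_sum, Finsupp.coe_finsetSum, Finset.sum_apply]
  have hub : ∀ i j, ub i (s j) = if i = j then 1 else 0 := by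
    intro i j
    change res ⟨b.repr (u i) (s j), huV i (s j)⟩ = _
    have h1 : (⟨b.repr (u i) (s j), huV i (s j)⟩ : V) = if i = j then 1 else 0 := by
      apply Subtype.ext
      change b.repr (u i) (s j) = _
      rw [hd]
      split_ifs <;> rfl
    rw [h1]
    split_ifs <;> simp
  -- the map
  let Ψ : (H × Fin d → k) →ₗ[k] (Fin n → k) :=
    { toFun := fun a => ∑ z : H × Fin d, a z • Wv z.1 z.2
      map_add' := by
        intro a c
        simp [add_smul, Finset.sum_add_distrib]
      map_smul' := by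
        intro c a
        simp [Finset.smul_sum, smul_smul] }
  have hΨ : ∀ a, Ψ a = ∑ z : H × Fin d, a z • Wv z.1 z.2 := fun _ => rfl
  let ρP : Representation k H (H × Fin d → k) :=
    { toFun := fun h =>
        { toFun := fun a x => a (h⁻¹ * x.1, x.2)
          map_add' := by intro a c; rfl
          map_smul' := by intro c a; rfl }
      map_one' := by
        ext a x
        simp
      map_mul' := by
        intro a c
        ext e x
        simp [mul_assoc] }
  have hρP : ∀ h a x, ρP h a x = a (h⁻¹ * x.1, x.2) := fun _ _ _ => rfl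
  have hinj : ∀ a : H × Fin d → k, Ψ a = 0 → a = 0 := by
    intro a ha
    by_contra hne
    have hinv : ∀ (g : H), ∀ v ∈ LinearMap.ker Ψ, ρP g v ∈ LinearMap.ker Ψ := by
      intro g v hv
      rw [LinearMap.mem_ker] at hv ⊢
      have h3 : Ψ (ρP g v) = (T g).mulVec (Ψ v) := by
        rw [hΨ, hΨ, Matrix.mulVec_sum]
        let e : H × Fin d ≃ H × Fin d :=
          { toFun := fun z => (g * z.1, z.2)
            invFun := fun z => (g⁻¹ * z.1, z.2)
            left_inv := fun z => by simp
            right_inv := fun z => by simp }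
        rw [← Equiv.sum_comp e (fun z => (ρP g v) z • Wv z.1 z.2)]
        refine Finset.sum_congr rfl fun z _ => ?_
        have he : e z = (g * z.1, z.2) := rfl
        rw [he, hρP]
        simp only [inv_mul_cancel_left]
        rw [Matrix.mulVec_smul]
        congr 1
        change (T (g * z.1)).mulVec (wb z.2) = (T g).mulVec ((T z.1).mulVec (wb z.2))
        rw [hTm, Matrix.mulVec_mulVec]
      rw [h3, hv, Matrix.mulVec_zero]
    obtain ⟨e, he1, he0, hefix⟩ := Cfsg.Agent.Lib.PermMod.Basic.exists_fixed_vector (K := k) (p := p)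
      hH ρP (LinearMap.ker Ψ) hinv (LinearMap.mem_ker.mpr ha) hne
    have hconst : ∀ x i, e (x, i) = e (1, i) := by
      intro x i
      have h5 := congrFun (hefix x⁻¹) (1, i)
      rw [hρP] at h5
      simpa using h5
    rw [LinearMap.mem_ker, hΨ] at he1
    have h6 : ∑ z : H × Fin d, e z • Wv z.1 z.2 = ∑ i, e (1, i) • ub i := by
      rw [Fintype.sum_prod_type_right]
      refine Finset.sum_congr rfl fun i _ => ?_
      rw [← hsumW i, Finset.smul_sum]
      refine Finset.sum_congr rfl fun g _ => ?_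
      rw [hconst]
    rw [h6] at he1
    have h7 : ∀ i, e (1, i) = 0 := by
      intro j
      have h8 := congrFun he1 (s j)
      rw [Finset.sum_apply] at h8
      simp only [Pi.smul_apply, smul_eq_mul, hub, Pi.zero_apply] at h8
      simpa using h8
    apply he0
    ext ⟨x, i⟩
    rw [hconst, h7]
    rfl
  have hli : LinearIndependent k (fun z : H × Fin d => Wv z.1 z.2) := by
    rw [Fintype.linearIndependent_iff]
    intro a ha z
    have := hinj a ha
    rw [this]
    rfl
  have hle := hli.fintype_card_le_finrank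
  simpa [Module.finrank_fin_fun] using hle

end LemmaA

section LemmaB

variable {G W : Type*} [Group G] [Fintype G] [AddCommGroup W] [Module ℂ W]

/-- `Lemma B`: if `f : G → L` is right `N`-invariant and left `P`-equivariant with `∑ f = 0`, then `f 1`
is a `P`-trace of a vector in `L`, provided `P` acts freely on the non-base cosets of `N`. -/
theorem exists_trace_of_sum_zero (ρ : Representation ℂ G W) (P N : Subgroup G) [Fintype P] (hPN : P ≤ N)
    (hfree : ∀ g : G, g ∉ N → ∀ h ∈ P, g⁻¹ * h * g ∈ N → h = 1)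
    (L : AddSubgroup W) (hL : ∀ (g : G), ∀ x ∈ L, ρ g x ∈ L) (f : G → W) (hfL : ∀ g, f g ∈ L)
    (hfN : ∀ g, ∀ n ∈ N, f (g * n) = f g) (hfP : ∀ h ∈ P, ∀ g, f (h * g) = ρ h (f g))
    (hsum : ∑ g, f g = 0) : ∃ w ∈ L, f 1 = ∑ h : P, ρ (h : G) w := by
  classical
  letI : Fintype (G ⧸ N) := Fintype.ofFinite _
  haveI : Fintype N := Fintype.ofFinite _
  -- the function on cosets
  let φ : G ⧸ N → L := fun q => ⟨f q.out, hfL _⟩
  have hφ : ∀ g : G, φ (g : G ⧸ N) = ⟨f g, hfL g⟩ := by
    intro g
    have h1 : ((g : G ⧸ N).out)⁻¹ * g ∈ N := QuotientGroup.eq.mp (Quotient.out_eq (g : G ⧸ N))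
    have h2 : g = (g : G ⧸ N).out * (((g : G ⧸ N).out)⁻¹ * g) := by group
    apply Subtype.ext
    change f (g : G ⧸ N).out = f g
    conv_rhs => rw [h2, hfN _ _ h1]
  have hsumq : ∑ q : G ⧸ N, (φ q : W) = 0 := by
    -- sum over `G` is `|N|` times the sum over cosets
    have h1 : ∑ g : G, f g = (Nat.card N : ℂ) • ∑ q : G ⧸ N, (φ q : W) := by
      rw [← Finset.sum_fiberwise (s := Finset.univ) (g := fun g : G => (g : G ⧸ N)), Finset.smul_sum]
      refine Finset.sum_congr rfl fun q _ => ?_
      have h2 : ∀ g ∈ Finset.univ.filter (fun g : G => (g : G ⧸ N) = q), f g = (φ q : W) := by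
        intro g hg
        rw [← (Finset.mem_filter.mp hg).2, hφ]
      rw [Finset.sum_congr rfl h2, Finset.sum_const, ← Nat.cast_smul_eq_nsmul ℂ]
      congr 2
      -- the size of a fibre
      obtain ⟨t, rfl⟩ := QuotientGroup.mk_surjective q
      rw [← Nat.card_eq_finsetCard]
      apply Nat.card_congr
      refine ⟨fun g => ⟨t⁻¹ * g.1, ?_⟩, fun n => ⟨t * n.1, ?_⟩, ?_, ?_⟩
      · have h3 := (Finset.mem_filter.mp g.2).2
        exact QuotientGroup.eq.mp h3.symm
      · refine Finset.mem_filter.mpr ⟨Finset.mem_univ _, ?_⟩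
        symm
        apply QuotientGroup.eq.mpr
        simpa using n.2
      · intro g
        simp
      · intro n
        simp
    rw [hsum] at h1
    have hcard : (Nat.card N : ℂ) ≠ 0 := Nat.cast_ne_zero.mpr Nat.card_pos.ne'
    exact ((smul_eq_zero.mp h1.symm).resolve_left hcard)
  have hφs : ∀ (h : P) (q : G ⧸ N), φ ((h : G) • q) = ⟨ρ (h : G) (φ q), hL _ _ (φ q).2⟩ := by
    intro h q
    induction q using QuotientGroup.induction_on with
    | H z =>
      have h1 : (h : G) • (z : G ⧸ N) = (((h : G) * z : G) : G ⧸ N) := rfl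
      rw [h1, hφ, hφ]
      apply Subtype.ext
      exact hfP _ h.2 z
  -- the action of `P` on the non-base cosets
  let S : SubMulAction P (G ⧸ N) :=
    { carrier := {q | q ≠ ((1 : G) : G ⧸ N)}
      smul_mem' := by
        intro h q hq hq'
        apply hq
        have h1 : ((h : G) • q) = ((1 : G) : G ⧸ N) := hq'
        have h2 : q = (h : G)⁻¹ • ((1 : G) : G ⧸ N) := by
          rw [← h1, inv_smul_smul]
        rw [h2]
        change (((h : G)⁻¹ * 1 : G) : G ⧸ N) = ((1 : G) : G ⧸ N)
        rw [QuotientGroup.eq]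
        have : (h : G) ∈ N := hPN h.2
        simpa using this }
  letI : Fintype S := Fintype.ofFinite _
  let act : P → L →+ L := fun h =>
    { toFun := fun z => ⟨ρ (h : G) z, hL _ _ z.2⟩
      map_zero' := by
        apply Subtype.ext
        simp
      map_add' := by
        intro a c
        apply Subtype.ext
        simp }
  obtain ⟨a, ha⟩ := exists_sum_eq_of_free (P := P) (X := S) act (fun q => φ q.1)
    (by
      intro h q
      exact hφs h q.1)
    (by
      intro q h hq
      have hq1 : q.1 ≠ ((1 : G) : G ⧸ N) := q.2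
      have hq2 : (h : G) • q.1 = q.1 := congrArg Subtype.val hq
      have hq3 : ∃ g : G, (g : G ⧸ N) = q.1 := ⟨q.1.out, Quotient.out_eq _⟩
      obtain ⟨g, hg⟩ := hq3
      rw [← hg] at hq1 hq2
      have hgN : g ∉ N := by
        intro h'
        apply hq1
        rw [QuotientGroup.eq]
        simpa using h'
      have h3 : ((h * g : G) : G ⧸ N) = (g : G ⧸ N) := hq2
      rw [QuotientGroup.eq] at h3
      have h4 : g⁻¹ * (h : G) * g ∈ N := by
        have := N.inv_mem h3
        simpa [mul_assoc] using this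
      have := hfree g hgN h h.2 h4
      exact Subtype.ext this)
  refine ⟨-(a : W), L.neg_mem a.2, ?_⟩
  have h1 : ∑ q : G ⧸ N, (φ q : W) = (φ ((1 : G) : G ⧸ N) : W) +
      ∑ q : {q : G ⧸ N // q ≠ ((1 : G) : G ⧸ N)}, (φ q.1 : W) :=
    Fintype.sum_eq_add_sum_subtype_ne _ _
  have h2 : (φ ((1 : G) : G ⧸ N) : W) = f 1 := by rw [hφ]
  have h3 : ∑ q : {q : G ⧸ N // q ≠ ((1 : G) : G ⧸ N)}, (φ q.1 : W) = ∑ x : S, (φ x.1 : W) := by
    let e : {q : G ⧸ N // q ≠ ((1 : G) : G ⧸ N)} ≃ S :=
      ⟨fun q => ⟨q.1, q.2⟩, fun x => ⟨x.1, x.2⟩, fun _ => rfl, fun _ => rfl⟩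
    exact Fintype.sum_equiv e _ _ fun _ => rfl
  have h4 : ∑ x : S, (φ x.1 : W) = ∑ h : P, ρ (h : G) (a : W) := by
    have := congrArg (fun z : L => (z : W)) ha
    simp only [AddSubmonoidClass.coe_finsetSum] at this
    exact this
  rw [h1, h2, h3, h4] at hsumq
  have h5 : f 1 = - ∑ h : P, ρ (h : G) (a : W) := eq_neg_of_add_eq_zero_left hsumq
  rw [h5, ← Finset.sum_neg_distrib]
  refine Finset.sum_congr rfl fun h _ => ?_
  rw [map_neg]

end LemmaB

end Cfsg.Agent.Lib.Perm7.Lat
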