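import Cfsg.Agent.Lib.Perm7.Sys
import Cfsg.Agent.Lib.ModRep.AbFrob

/-!
# The case `|E|` odd: `u` inverts `E`, and the main inequality
-/

set_option autoImplicit false
set_option linter.unusedSectionVars false
set_option linter.style.haveILetI false

namespace Cfsg.Agent.Lib.Perm7.Core

open scoped BigOperators ComplexConjugate
open Cfsg Module Cfsg.Agent.Lib.Char.Induced Cfsg.Agent.Lib.Char.Ortho Cfsg.Agent.Lib.Char.Linear
open Cfsg.Agent.Lib.Char.Basic Cfsg.Agent.Lib.Char.GenLattice Cfsg.Agent.Lib.Char.Complete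
open Cfsg.Agent.Lib.Char.IndRep Cfsg.Agent.Lib.Perm7.Exc Cfsg.Agent.Lib.Perm7.Label
open Cfsg.Agent.Lib.Perm7.Frob Cfsg.Agent.Lib.Perm7.Integ
open Cfsg.Agent.Lib.ModTI.Integral

universe u

variable {G : Type u} [Group G] [Fintype G] {p : ℕ} [hp : Fact p.Prime] {P E : Subgroup G} [Fintype P] [Fintype E]
  {u : G} {χp : G → ℂ}

/-- An element of odd order and of square one is trivial. -/
theorem eq_one_of_sq {z : ℂˣ} {e : ℕ} (he : Odd e) (hz : z ^ e = 1) (hz2 : z ^ 2 = 1) : z = 1 := by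
  obtain ⟨k, rfl⟩ := he
  have h1 : z ^ (2 * k + 1) = (z ^ 2) ^ k * z := by rw [pow_succ, pow_mul]
  rw [h1, hz2, one_pow, one_mul] at hz
  exact hz

theorem val_pow_card (θ : E →* ℂˣ) (x : E) : θ x ^ Nat.card E = 1 := by
  rw [← map_pow, pow_card_eq_one', map_one]

/-- The extension of a `u`-invariant character of `E` to `N(E)`. -/
noncomputable def hatF (E : Subgroup G) (u : G) (θ : E →* ℂˣ) (a : G) : ℂˣ :=
  open scoped Classical in
  if h : a ∈ E then θ ⟨a, h⟩ else if h' : u⁻¹ * a ∈ E then θ ⟨u⁻¹ * a, h'⟩ else 1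

theorem hatF_of_mem (θ : E →* ℂˣ) {a : G} (h : a ∈ E) : hatF E u θ a = θ ⟨a, h⟩ := by
  rw [hatF, dif_pos h]

theorem hatF_of_not_mem (θ : E →* ℂˣ) {a : G} (h : a ∉ E) (h' : u⁻¹ * a ∈ E) :
    hatF E u θ a = θ ⟨u⁻¹ * a, h'⟩ := by
  rw [hatF, dif_neg h, dif_pos h']

/-- The extension is multiplicative. -/
noncomputable def hatHom (hT : TIE E u) (hu2 : u * u = 1) (θ : E →* ℂˣ) (hθ : tu hT θ = θ) :
    Subgroup.normalizer (E : Set G) →* ℂˣ :=
  MonoidHom.mk' (fun a => hatF E u θ a) (by
    intro a b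
    have hinvu : u⁻¹ = u := inv_eq_of_mul_eq_one_left hu2
    have hθ' : ∀ (x : G) (hx : x ∈ E) (hx' : u⁻¹ * x * u ∈ E), θ ⟨u⁻¹ * x * u, hx'⟩ = θ ⟨x, hx⟩ := by
      intro x hx hx'
      have h1 := DFunLike.congr_fun hθ ⟨x, hx⟩
      exact h1
    have hmem : ∀ c : E, u⁻¹ * (c : G) * u ∈ E := fun c => (cu hT c).2
    rcases hT.hN2 a a.2 with ha | ha <;> rcases hT.hN2 b b.2 with hb | hb
    · have hab : ((a * b : Subgroup.normalizer (E : Set G)) : G) ∈ E := E.mul_mem ha hb
      rw [hatF_of_mem θ hab, hatF_of_mem θ ha, hatF_of_mem θ hb, ← map_mul]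
      rfl
    · have hb' : (b : G) ∉ E := fun h => hT.huE (by
        have h1 := E.mul_mem hb (E.inv_mem h)
        have h2 := E.inv_mem h1
        simpa using h2)
      have hab : ((a * b : Subgroup.normalizer (E : Set G)) : G) ∉ E := by
        intro h
        apply hb'
        have h1 := E.mul_mem (E.inv_mem ha) h
        simpa using h1
      have hab' : u⁻¹ * ((a * b : Subgroup.normalizer (E : Set G)) : G) ∈ E := by
        have h1 := E.mul_mem (hmem ⟨a, ha⟩) hb
        have e1 : u⁻¹ * (a : G) * u * (u⁻¹ * b) = u⁻¹ * ((a * b : Subgroup.normalizer (E : Set G)) : G) := by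
          simp only [Subgroup.coe_mul]
          group
        rwa [e1] at h1
      rw [hatF_of_not_mem θ hab hab', hatF_of_mem θ ha, hatF_of_not_mem θ hb' hb,
        ← hθ' a ha (hmem ⟨a, ha⟩), ← map_mul]
      congr 1
      apply Subtype.ext
      simp only [Subgroup.coe_mul]
      group
    · have ha' : (a : G) ∉ E := fun h => hT.huE (by
        have h1 := E.mul_mem ha (E.inv_mem h)
        have h2 := E.inv_mem h1
        simpa using h2)
      have hab : ((a * b : Subgroup.normalizer (E : Set G)) : G) ∉ E := by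
        intro h
        apply ha'
        have h1 := E.mul_mem h (E.inv_mem hb)
        simpa using h1
      have hab' : u⁻¹ * ((a * b : Subgroup.normalizer (E : Set G)) : G) ∈ E := by
        have h1 := E.mul_mem ha hb
        simpa [mul_assoc] using h1
      rw [hatF_of_not_mem θ hab hab', hatF_of_not_mem θ ha' ha, hatF_of_mem θ hb, ← map_mul]
      congr 1
      apply Subtype.ext
      simp [mul_assoc]
    · have ha' : (a : G) ∉ E := fun h => hT.huE (by
        have h1 := E.mul_mem ha (E.inv_mem h)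
        have h2 := E.inv_mem h1
        simpa using h2)
      have hb' : (b : G) ∉ E := fun h => hT.huE (by
        have h1 := E.mul_mem hb (E.inv_mem h)
        have h2 := E.inv_mem h1
        simpa using h2)
      have e1 : ((a * b : Subgroup.normalizer (E : Set G)) : G) = u⁻¹ * (u⁻¹ * (a : G)) * u * (u⁻¹ * b) := by
        simp only [Subgroup.coe_mul, hinvu]
        have h3 : u * u * (a : G) = a := by rw [hu2, one_mul]
        have h4 : u * (u * (a : G)) * u * (u * b) = (u * u * (a : G)) * ((u * u) * b) := by group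
        rw [h4, hu2, one_mul, one_mul]
      have hab : ((a * b : Subgroup.normalizer (E : Set G)) : G) ∈ E := by
        rw [e1]
        exact E.mul_mem (hmem ⟨_, ha⟩) hb
      rw [hatF_of_mem θ hab, hatF_of_not_mem θ ha' ha, hatF_of_not_mem θ hb' hb,
        ← hθ' _ ha (hmem ⟨_, ha⟩), ← map_mul]
      congr 1
      apply Subtype.ext
      simpa using e1)

/-- Existence of a character separating `c` from `1`. -/
theorem exists_hom_ne_one (hcomm : ∀ a b : E, a * b = b * a) {c : E} (hc : c ≠ 1) :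
    ∃ ψ : E →* ℂˣ, ψ c ≠ 1 := by
  classical
  by_contra hall
  push Not at hall
  haveI := Cfsg.Agent.Lib.ModRep.AbFrob.finite_hom hcomm
  letI : Fintype (E →* ℂˣ) := Fintype.ofFinite _
  have h1 := Cfsg.Agent.Lib.ModRep.AbFrob.sum_hom hcomm c
  rw [if_neg hc] at h1
  simp only [hall, Units.val_one, Finset.sum_const, Finset.card_univ, nsmul_eq_mul, mul_one] at h1
  have h2 : Fintype.card (E →* ℂˣ) ≠ 0 := Fintype.card_ne_zero
  exact h2 (by exact_mod_cast h1)

section Inv

variable (S : Sys p P E u χp) (hodd : Odd (Nat.card E)) (hu2 : u * u = 1)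
include S hodd hu2

/-- `u` has no non-trivial fixed point on `E`. -/
theorem Sys.fixed_eq_one {c : E} (hc : cu S.hT c = c) : c = 1 := by
  classical
  by_contra hc1
  obtain ⟨ψ, hψ⟩ := exists_hom_ne_one S.hT.hcomm hc1
  have hT := S.hT
  let θ : E →* ℂˣ := ψ * tu hT ψ
  have hθapp : ∀ x, θ x = ψ x * ψ (cu hT x) := fun x => rfl
  have htu : tu hT θ = θ := by
    ext x
    simp only [tu_apply, hθapp, cu_cu]
    rw [mul_comm]
  have hθc : θ c ≠ 1 := by
    rw [hθapp, hc, ← sq]
    intro h2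
    exact hψ (eq_one_of_sq hodd (val_pow_card ψ c) h2)
  letI : Fintype (Subgroup.normalizer (E : Set G)) := Fintype.ofFinite _
  let th := hatHom hT hu2 θ htu
  have hth : ∀ a : Subgroup.normalizer (E : Set G), th a = hatF E u θ a := fun a => rfl
  have hthpow : ∀ a : Subgroup.normalizer (E : Set G), th a ^ Nat.card E = 1 := by
    intro a
    rw [hth]
    rcases hT.hN2 a a.2 with ha | ha
    · rw [hatF_of_mem θ ha]
      exact val_pow_card θ _
    · have ha' : (a : G) ∉ E := fun h => hT.huE (by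
        have h1 := E.mul_mem ha (E.inv_mem h)
        have h2 := E.inv_mem h1
        simpa using h2)
      rw [hatF_of_not_mem θ ha' ha]
      exact val_pow_card θ _
  have hcN : (c : G) ∈ Subgroup.normalizer (E : Set G) := by
    rw [Subgroup.mem_normalizer_iff]
    intro n
    constructor
    · intro hn
      exact E.mul_mem (E.mul_mem c.2 hn) (E.inv_mem c.2)
    · intro hn
      have := E.mul_mem (E.mul_mem (E.inv_mem c.2) hn) c.2
      simpa [mul_assoc] using this
  have hthne : th ≠ 1 := by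
    intro h
    apply hθc
    have h1 : th ⟨c, hcN⟩ = 1 := by rw [h]; rfl
    rw [hth, hatF_of_mem θ c.2] at h1
    exact h1
  -- the square of a non-kernel element
  have hkey : ∀ t : Subgroup.normalizer (E : Set G), th t ≠ 1 → (t : G) * t ∈ E ∧ (t : G) * t ≠ 1 := by
    intro t ht
    refine ⟨?_, ?_⟩
    · rcases hT.hN2 t t.2 with h1 | h1
      · exact E.mul_mem h1 h1
      · have hinvu : u⁻¹ = u := inv_eq_of_mul_eq_one_left hu2
        have h2 := (cu hT ⟨_, h1⟩).2
        simp only [coe_cu] at h2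
        have h3 := E.mul_mem h2 h1
        have e1 : u⁻¹ * (u⁻¹ * (t : G)) * u * (u⁻¹ * t) = (t : G) * t := by
          rw [hinvu]
          have h4 : u * (u * (t : G)) * u * (u * t) = (u * u * (t : G)) * ((u * u) * t) := by group
          rw [h4, hu2, one_mul]
        rwa [e1] at h3
    · intro h1
      apply ht
      apply eq_one_of_sq hodd (hthpow t)
      rw [sq, ← map_mul]
      have : t * t = 1 := Subtype.ext h1
      rw [this, map_one]
  -- the induced function agrees with the function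
  have hclass : IsClassFunction (Subgroup.normalizer (E : Set G)) (ff th) := by
    intro g h
    simp [ff, map_mul, mul_comm]
  have hval : ∀ t : Subgroup.normalizer (E : Set G), ff th t ≠ 0 → gam th (t : G) = ff th t := by
    intro t ht
    apply Cfsg.Agent.Lib.Char.TI.indFun_eq_of_conj_mem _ _ hclass
    intro x hx hne
    have ht1 : th t ≠ 1 := by
      intro h
      apply ht
      simp [ff, h]
    have hs1 : th ⟨_, hx⟩ ≠ 1 := by
      intro h
      apply hne
      simp [ff, h]
    obtain ⟨h1, h2⟩ := hkey t ht1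
    obtain ⟨h3, h4⟩ := hkey _ hs1
    have h5 : x⁻¹ * ((t : G) * t) * x⁻¹⁻¹ ∈ E := by
      have e1 : x⁻¹ * ((t : G) * t) * x⁻¹⁻¹ = (x⁻¹ * t * x) * (x⁻¹ * t * x) := by group
      rw [e1]
      exact h3
    have h6 := hT.hti x⁻¹ _ h1 h2 h5
    have := Subgroup.inv_mem _ h6
    simpa using this
  -- norms
  have hinner : classInner (gam th) (gam th) = 2 := by
    rw [inner_gam th (isClass_gam th)]
    have h1 : classInner (ff th) (fun x : Subgroup.normalizer (E : Set G) => gam th (x : G)) =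
        classInner (ff th) (ff th) := by
      rw [classInner_def, classInner_def]
      congr 1
      refine Finset.sum_congr rfl fun t _ => ?_
      by_cases ht : ff th t = 0
      · rw [ht, zero_mul, zero_mul]
      · rw [hval t ht]
    rw [h1]
    rw [ff_eq th, classInner_sub_left, classInner_sub_right, classInner_sub_right, inner_lin, inner_lin, inner_lin,
      inner_lin]
    simp [hthne, hthne.symm]
    norm_num
  have hinner1 : classInner (gam th) (fun _ : G => (1 : ℂ)) = -1 :=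
    inner_gam_of_one th hthne (fun _ _ => rfl) (fun _ _ => rfl)
  have hinner2 : classInner (fun _ : G => (1 : ℂ)) (gam th) = -1 := by
    have h := classInner_conj (gam th) (fun _ : G => (1 : ℂ))
    rw [hinner1] at h
    rw [← h]
    simp
  let η : G → ℂ := gam th + fun _ => 1
  have hη : classInner η η = 1 := by
    simp only [η]
    rw [classInner_add_left, classInner_add_right, classInner_add_right, hinner, hinner1, hinner2, inner_one_one]
    norm_num
  have hη1 : η 1 = 1 := by
    simp only [η, Pi.add_apply]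
    rw [gam_one]
    simp
  have hgen : IsGeneralizedCharacter G η := isGenChar_add (isGen_gam th) isGenChar_one
  rcases norm_one hgen hη with h1 | h1
  · obtain ⟨l, hl⟩ := exists_hom_of_deg_one (isCharacter_of_isIrrCharacter h1) hη1
    rw [S.hperf l] at hl
    have h2 : gam th = 0 := by
      funext g
      have h3 := congrFun hl g
      simp only [η, Pi.add_apply] at h3
      simp only [MonoidHom.one_apply, Units.val_one] at h3
      simpa using h3
    rw [h2, classInner_zero_left] at hinner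
    norm_num at hinner
  · obtain ⟨n, hn, hn1⟩ := exists_pos_deg_of_isIrr h1
    rw [Pi.neg_apply, hη1] at hn1
    have h2 : ((n : ℂ)).re = -1 := by rw [← hn1]; simp
    simp at h2
    have : (0 : ℝ) ≤ n := Nat.cast_nonneg n
    linarith

/-- `u` inverts `E`. -/
theorem Sys.cu_eq_inv (x : E) : cu S.hT x = x⁻¹ := by
  have h1 : cu S.hT (x * cu S.hT x) = x * cu S.hT x := by
    rw [map_mul, cu_cu, S.hT.hcomm]
  have h2 := S.fixed_eq_one hodd hu2 h1
  exact (eq_inv_of_mul_eq_one_right h2)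

theorem Sys.tu_eq_inv (θ : E →* ℂˣ) : tu S.hT θ = θ⁻¹ := by
  ext x
  simp only [tu_apply, S.cu_eq_inv hodd hu2, map_inv, MonoidHom.inv_apply]

theorem Sys.ne_inv {θ : E →* ℂˣ} (hθ : θ ≠ 1) : θ ≠ θ⁻¹ := by
  intro h
  apply hθ
  ext x
  have h1 : θ x = (θ x)⁻¹ := by
    have := DFunLike.congr_fun h x
    simpa using this
  have h2 : θ x ^ 2 = 1 := by
    rw [sq]
    nth_rewrite 1 [h1]
    simp
  have := eq_one_of_sq hodd (val_pow_card θ x) h2
  simp [this]

/-- `rst θ` is irreducible. -/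
theorem Sys.isIrr_rst {θ : E →* ℂˣ} (hθ : θ ≠ 1) : IsIrrCharacter G (rst χp θ) := by
  classical
  have hne := S.ne_inv hodd hu2 hθ
  have h1 := S.inner_rst θ θ hθ hθ
  rw [S.tu_eq_inv hodd hu2, if_pos rfl, if_neg hne, add_zero] at h1
  rcases norm_one (S.isGen_rst θ) h1 with h2 | h2
  · exact h2
  · exfalso
    obtain ⟨n, hn, hn1⟩ := exists_pos_deg_of_isIrr h2
    rw [Pi.neg_apply, S.rst_one] at hn1
    have h3 : ((n : ℂ)).re = -((p : ℂ) + 1).re := by rw [← hn1]; simp
    simp at h3
    have h4 : (0 : ℝ) ≤ n := Nat.cast_nonneg n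
    have h5 : (0 : ℝ) ≤ p := Nat.cast_nonneg p
    linarith

end Inv

section Integ2

omit [Fintype G] in
theorem bet_add (l : E →* ℂˣ) (F F' : G → ℂ) (g : G) :
    bet P E l (F + F') g = bet P E l F g + bet P E l F' g := by
  unfold bet
  rw [← Finset.sum_add_distrib]
  refine Finset.sum_congr rfl fun x _ => ?_
  rw [← Finset.sum_add_distrib]
  refine Finset.sum_congr rfl fun y _ => ?_
  simp only [Pi.add_apply]
  ring

theorem val_mem_Rz (θ : E →* ℂˣ) (x : E) : ((θ x : ℂˣ) : ℂ) ∈ Rz (Fintype.card E) := by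
  apply root_mem_Rz
  have h1 := val_pow_card θ x
  rw [Nat.card_eq_fintype_card] at h1
  rw [← Units.val_pow_eq_pow_val, h1, Units.val_one]

theorem tb_mem_Rz (θ : E →* ℂˣ) (x : E) : tb θ x ∈ Rz (Fintype.card E) := by
  have h := val_mem_Rz θ x⁻¹
  rwa [map_inv] at h

/-- The values of `gam` are `ℤ`-combinations of roots of unity. -/
theorem gam_mem_Rz (hT : TIE E u) (θ : E →* ℂˣ) (g : G) : gam θ g ∈ Rz (Fintype.card E) := by
  classical
  by_cases hg : ∃ (a : G) (x : E), x ≠ 1 ∧ g = a * x * a⁻¹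
  · obtain ⟨a, x, hx, rfl⟩ := hg
    rw [isClass_gam, gam_apply hT _ hx]
    simp only [ff]
    exact Subring.add_mem _ (Subring.sub_mem _ (val_mem_Rz θ _) (Subring.one_mem _))
      (Subring.sub_mem _ (val_mem_Rz θ _) (Subring.one_mem _))
  · push Not at hg
    rw [gam_eq_zero _ hg]
    exact Subring.zero_mem _

variable (S : Sys p P E u χp)
include S

/-- The twisted sum for `χp` vanishes for `θ ≠ 1`. -/
theorem Sys.bet_χ_zero {θ : E →* ℂˣ} (hθ : θ ≠ 1) (g : G) : bet P E θ χp g = 0 := by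
  classical
  obtain ⟨n, ρ, -, hρ⟩ := S.hχ
  have h1 : bet P E θ ρ.character 1 = 0 := by
    rw [hρ, S.bet_χ_one θ, if_neg (Ne.symm hθ), mul_zero]
  have h2 : piOp P E θ ρ = 0 := LinearMap.ext fun w => by
    have := eig_eq_zero ρ S.hnorm h1 (isEig_piOp θ S.hnorm ρ w)
    simpa using this
  rw [← hρ, ← trace_piOp_comp, h2, zero_mul, map_zero]

omit S in
theorem bet_triv_zero {θ : E →* ℂˣ} (hθ : θ ≠ 1) (g : G) : bet P E θ (fun _ => 1) g = 0 := by
  classical
  rw [bet_triv, if_neg (Ne.symm hθ), mul_zero]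

/-- Reduction of the twisted sum of `rst θ` to that of `gam θ`. -/
theorem Sys.bet_rst_eq {θ : E →* ℂˣ} (hθ : θ ≠ 1) (g : G) :
    bet P E θ (rst χp θ) g = bet P E θ (gam θ) g := by
  rw [rst_eq, bet_add, bet_add, S.bet_χ_zero hθ, bet_triv_zero hθ, add_zero, add_zero]

theorem Sys.bet_rst_mem_Rz {θ : E →* ℂˣ} (hθ : θ ≠ 1) (g : G) :
    bet P E θ (rst χp θ) g ∈ Rz (Fintype.card E) := by
  rw [S.bet_rst_eq hθ]
  unfold bet
  exact Subring.sum_mem _ fun x _ => Subring.sum_mem _ fun y _ =>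
    Subring.mul_mem _ (tb_mem_Rz θ x) (gam_mem_Rz S.hT θ _)

/-- The swap rule for a real class function. -/
theorem Sys.bet_swap {ξ : G → ℂ} (hξ : IsClassFunction G ξ) (hinv : ∀ g, ξ g⁻¹ = ξ g) (θ : E →* ℂˣ) (g : G) :
    bet P E θ⁻¹ ξ g⁻¹ = bet P E θ ξ g := by
  unfold bet
  rw [← Equiv.sum_comp (Equiv.inv E)]
  refine Finset.sum_congr rfl fun x _ => ?_
  simp only [Equiv.inv_apply]
  have h1 : tb θ⁻¹ x⁻¹ = tb θ x := by simp [tb]
  simp only [h1]
  -- the bijection of `P`
  let e : P ≃ P := (Equiv.inv P).trans (conjP S.hnorm x)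
  rw [← Equiv.sum_comp e.symm]
  refine Finset.sum_congr rfl fun y _ => ?_
  congr 1
  have h2 : ((e.symm y : P) : G) = (x : G)⁻¹ * (y : G)⁻¹ * x := by
    simp [e, conjP, mul_assoc]
  rw [h2, ← hinv (g * y * x), show (g * (y : G) * x)⁻¹ = ((x : G)⁻¹ * (y : G)⁻¹) * g⁻¹ by group, cf_comm hξ ((x : G)⁻¹ * (y : G)⁻¹) g⁻¹]
  congr 1
  simp only [Subgroup.coe_inv]
  group

end Integ2

section Ineq

variable (S : Sys p P E u χp) (hodd : Odd (Nat.card E)) (hu2 : u * u = 1)
include S hodd hu2

/-- `gam θ` is real. -/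
theorem Sys.conj_gam (θ : E →* ℂˣ) (g : G) : conj (gam θ g) = gam θ g := by
  classical
  by_cases hg : ∃ (a : G) (x : E), x ≠ 1 ∧ g = a * x * a⁻¹
  · obtain ⟨a, x, hx, rfl⟩ := hg
    rw [isClass_gam, gam_apply S.hT _ hx, S.cu_eq_inv hodd hu2]
    have h1 : ff θ x⁻¹ = tb θ x - 1 := by simp [ff, tb]
    rw [h1]
    simp only [ff, map_add, map_sub, map_one]
    rw [conj_val, ← conj_val θ x, Complex.conj_conj]
    ring
  · push Not at hg
    rw [gam_eq_zero _ hg]
    simp

theorem Sys.conj_rst (θ : E →* ℂˣ) (g : G) : conj (rst χp θ g) = rst χp θ g := by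
  simp only [rst, map_add, map_one, S.conj_gam hodd hu2, S.hχr]

/-- The integrality of the twisted sum. -/
theorem Sys.bet_rst_div {V : ValuationSubring ℂ} (hpV : (p : ℂ) ∈ V.nonunits) {θ : E →* ℂˣ} (hθ : θ ≠ 1) (g : G) :
    bet P E θ (rst χp θ) g / ((Fintype.card P * Fintype.card E : ℕ) : ℂ) ∈ V := by
  classical
  have hne := S.ne_inv hodd hu2 hθ
  have htu := S.tu_eq_inv hodd hu2 θ
  obtain ⟨n, ρ, hirr, hρ⟩ := S.isIrr_rst hodd hu2 hθ
  have hPg : IsPGroup p P := IsPGroup.of_card (n := 1) (by rw [S.hPc, pow_one])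
  have hfix : fixDim ρ P = 2 := by
    have h1 := fixDim_eq ρ P
    rw [hρ, S.sum_rst, S.card_P] at h1
    have hp0 : (p : ℂ) ≠ 0 := Nat.cast_ne_zero.mpr hp.out.ne_zero
    have h2 : (fixDim ρ P : ℂ) = 2 := by
      rw [h1]
      field_simp
    exact_mod_cast h2
  have hn : finrank ℂ (Fin n → ℂ) < 2 * p := by
    have h1 := Representation.char_one ρ
    rw [hρ, S.rst_one] at h1
    have h2 : finrank ℂ (Fin n → ℂ) = p + 1 := by
      have h3 : ((finrank ℂ (Fin n → ℂ) : ℕ) : ℂ) = ((p + 1 : ℕ) : ℂ) := by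
        rw [← h1]
        push_cast
        rfl
      exact_mod_cast h3
    have := hp.out.two_le
    omega
  have hcop : Nat.Coprime p (Fintype.card E) := by
    rw [← Nat.card_eq_fintype_card]
    exact S.coprime_card
  rw [← hρ]
  refine bet_div_mem ρ hpV S.card_P hPg S.hnorm S.hT.hcomm hcop hfix hn (θ₂ := θ⁻¹) ?_ ?_ ?_ ?_ ?_ g
  · rw [hρ, S.bet_rst_one θ θ, if_pos rfl, htu, if_neg hne.symm, add_zero, mul_one]
  · rw [hρ, S.bet_rst_one θ⁻¹ θ, if_neg hne, htu, if_pos rfl, zero_add, mul_one]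
  · intro l h1 h2
    rw [hρ, S.bet_rst_one l θ, if_neg (Ne.symm h1), htu, if_neg (Ne.symm h2), add_zero, mul_zero]
  · intro g'
    rw [hρ]
    exact S.bet_rst_mem_Rz hθ g'
  · intro g'
    rw [hρ]
    refine S.bet_swap (S.isClass_rst θ) ?_ θ g'
    intro h
    rw [← hρ, char_inv_eq_conj ⟨n, ρ, rfl⟩, hρ, S.conj_rst hodd hu2]

/-- The main inequality. -/
theorem Sys.odd_ineq {n : ℕ} (ρ : Representation ℂ G (Fin n → ℂ)) (hρ : ρ.IsIrreducible)
    (h1 : ρ.character ≠ fun _ => 1) (h2 : ∀ θ : E →* ℂˣ, θ ≠ 1 → ρ.character ≠ rst χp θ) :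
    p * fixDim ρ P ≤ n := by
  classical
  obtain ⟨V, hpV⟩ := exists_valuationSubring hp.out
  have hPg : IsPGroup p P := IsPGroup.of_card (n := 1) (by rw [S.hPc, pow_one])
  have hcop : Nat.Coprime p (Fintype.card E) := by
    rw [← Nat.card_eq_fintype_card]
    exact S.coprime_card
  have hirrρ : IsIrrCharacter G ρ.character := ⟨n, ρ, hρ, rfl⟩
  have hmain := main_ineq ρ hpV hPg S.hnorm S.hT.hcomm (inv_natCast_mem hp.out hpV hcop) (P ⊔ E) rfl
    (by
      intro g hg h hh hconj
      rw [← S.hB] at hg hconj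
      exact S.hfree g hg h hh hconj) hρ (by
      intro θ
      by_cases hθ : θ = 1
      · subst hθ
        refine ⟨fun _ => 1, fun _ _ => rfl, ?_, ?_, ?_⟩
        · rw [bet_triv, if_pos rfl, mul_one]
        · intro g
          rw [bet_triv, if_pos rfl, mul_one, div_self (card_ne P E)]
          exact V.one_mem
        · have hone : IsIrrCharacter G (fun _ : G => (1 : ℂ)) := by
            simpa using isIrrCharacter_of_hom (1 : G →* ℂˣ)
          exact classInner_eq_zero_of_isIrr_of_ne hone hirrρ (Ne.symm h1)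
      · refine ⟨rst χp θ, S.isClass_rst θ, ?_, S.bet_rst_div hodd hu2 hpV hθ, ?_⟩
        · rw [S.bet_rst_one θ θ, if_pos rfl, S.tu_eq_inv hodd hu2 θ, if_neg (S.ne_inv hodd hu2 hθ).symm, add_zero,
            mul_one]
        · exact classInner_eq_zero_of_isIrr_of_ne (S.isIrr_rst hodd hu2 hθ) hirrρ (Ne.symm (h2 θ hθ)))
  rw [S.card_P] at hmain
  simpa using hmain

end Ineq

end Cfsg.Agent.Lib.Perm7.Core
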