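import Cfsg.Agent.Lib.Perm7.Setup
import Cfsg.Agent.Lib.PermMod.SylowPD
import Cfsg.Agent.Lib.PermMod.PrimeSmall
import Cfsg.Agent.Lib.PermMod.PrimeNormal
import Cfsg.Agent.Lib.Char.DefectZero

/-!
# From the hypotheses of the theorem to the system `Sys`
-/

set_option autoImplicit false
set_option linter.unusedSectionVars false
set_option linter.style.haveILetI false

namespace Cfsg.Agent.Lib.Perm7.PermSetup

open scoped BigOperators ComplexConjugate
open MulAction Cfsg Module Cfsg.Agent.Lib.Char.Linear Cfsg.Agent.Lib.Char.Ortho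
open Cfsg.Agent.Lib.Char.Basic Cfsg.Agent.Lib.Char.Complete
open Cfsg.Agent.Lib.Perm7.Label Cfsg.Agent.Lib.Perm7.Integ Cfsg.Agent.Lib.Perm7.Core Cfsg.Agent.Lib.Perm7.Exc
open Cfsg.Agent.Lib.Perm7.Setup
open Cfsg.Agent.Lib.Char.Degree
open Cfsg.Agent.Lib.PermMod.SylowPD Cfsg.Agent.Lib.PermMod.PrimeSmall Cfsg.Agent.Lib.PermMod.PrimeNormal

universe v

variable {α : Type v} [Fintype α] [DecidableEq α] {p : ℕ} [hp : Fact p.Prime]

/-- An element of the normalizer of `P` outside `P` has exactly one fixed point. -/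
theorem card_fixed (hα : Fintype.card α = p) (G : Subgroup (Equiv.Perm α)) [IsPretransitive G α] (P : Sylow p G)
    {x : G} (hx : x ∈ Subgroup.normalizer ((P : Subgroup G) : Set G)) (hxC : x ∉ (P : Subgroup G)) :
    Nat.card (fixedBy α x) = 1 := by
  classical
  obtain ⟨σ, hσP, hσord, hgen, e, he⟩ := exists_label_sylow hα G P
  have h1 : x * σ * x⁻¹ ∈ (P : Subgroup G) := (Subgroup.mem_set_normalizer_iff.mp hx σ).mp hσP
  have h2 : x * σ * x⁻¹ ∈ Submonoid.powers σ := by
    rw [mem_powers_iff_mem_zpowers]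
    exact hgen _ h1
  obtain ⟨k, hk⟩ := (Submonoid.mem_powers_iff _ _).mp h2
  have hk' : (x : Equiv.Perm α) * (σ : Equiv.Perm α) * (x : Equiv.Perm α)⁻¹ = (σ : Equiv.Perm α) ^ k := by
    have := congrArg Subtype.val hk
    simpa using this.symm
  have hform := conj_formula he hk'
  have hk1 : (k : ZMod p) ≠ 1 := by
    intro h
    apply hxC
    apply centralizer_sylow_le hα G P
    rw [Subgroup.mem_centralizer_iff]
    intro y hy
    have hσ' : σ ^ k = σ := by
      have h3 : k ≡ 1 [MOD orderOf σ] := by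
        rw [hσord]
        have h4 := (ZMod.natCast_eq_natCast_iff k 1 p).mp (by simpa using h)
        exact h4
      have h5 := (pow_eq_pow_iff_modEq).mpr h3
      simpa using h5
    have h6 : x * σ = σ * x := by
      have h7 : x * σ * x⁻¹ = σ := by rw [← hk, hσ']
      exact mul_inv_eq_iff_eq_mul.mp h7
    have hy' := hgen y hy
    obtain ⟨m, rfl⟩ := Subgroup.mem_zpowers_iff.mp hy'
    have hc : Commute x σ := h6
    exact (hc.zpow_right m).eq.symm
  have h1k : (1 : ZMod p) - (k : ZMod p) ≠ 0 := sub_ne_zero.mpr (Ne.symm hk1)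
  let c : ZMod p := e.symm ((x : Equiv.Perm α) (e 0))
  have hiff : ∀ j : ZMod p, (x : Equiv.Perm α) (e j) = e j ↔ j = c / (1 - (k : ZMod p)) := by
    intro j
    have h3 : (x : Equiv.Perm α) (e j) = e j ↔ e.symm ((x : Equiv.Perm α) (e j)) = j := by
      rw [Equiv.symm_apply_eq]
    rw [h3, hform j, eq_div_iff h1k]
    constructor
    · intro h
      show j * (1 - (k : ZMod p)) = e.symm ((x : Equiv.Perm α) (e 0))
      linear_combination -h
    · intro h
      have h4 : j * (1 - (k : ZMod p)) = e.symm ((x : Equiv.Perm α) (e 0)) := h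
      linear_combination -h4
  rw [Nat.card_eq_one_iff_unique]
  constructor
  · constructor
    rintro ⟨a, ha⟩ ⟨b, hb⟩
    apply Subtype.ext
    obtain ⟨i, rfl⟩ := e.surjective a
    obtain ⟨j, rfl⟩ := e.surjective b
    have ha' : (x : Equiv.Perm α) (e i) = e i := ha
    have hb' : (x : Equiv.Perm α) (e j) = e j := hb
    show e i = e j
    rw [(hiff i).mp ha', (hiff j).mp hb']
  · exact ⟨⟨e (c / (1 - (k : ZMod p))), (hiff _).mpr rfl⟩⟩

/-- The system. -/
theorem sys_of_perm (hα : Fintype.card α = p) (G : Subgroup (Equiv.Perm α)) [IsPretransitive G α]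
    (χ : IrrCharacter G) (hχd : charDegree (χ : G → ℂ) = p) (huniq : ∀ ψ : IrrCharacter G, charDegree (ψ : G → ℂ) = p → ψ = χ)
    (P : Sylow p G) (E : Subgroup G)
    (hPE : (P : Subgroup G) ⊔ E = Subgroup.normalizer ((P : Subgroup G) : Set G)) (hPE' : (P : Subgroup G) ⊓ E = ⊥)
    (hNE : Nat.card (Subgroup.normalizer (E : Set G)) = 2 * Nat.card E)
    (hTI : ∀ g : G, g ∉ Subgroup.normalizer (E : Set G) → E ⊓ E.map (MulAut.conj g).toMonoidHom = ⊥)
    {u : G} (hu : u ∈ Subgroup.normalizer (E : Set G)) (huE : u ∉ E) :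
    Sys p (P : Subgroup G) E u (χ : G → ℂ) := by
  classical
  letI : Fintype G := Fintype.ofFinite _
  letI : Fintype (P : Subgroup G) := Fintype.ofFinite _
  letI : Fintype E := Fintype.ofFinite _
  have hpp : p.Prime := hp.out
  have hPc : Nat.card (P : Subgroup G) = p := card_sylow hα G P
  have hp2 : ¬ p ^ 2 ∣ Nat.card G := by
    intro h
    have h1 := P.pow_dvd_card_of_pow_dvd_card h
    rw [show Nat.card (P : Subgroup G) = p from hPc] at h1
    have h2 := Nat.le_of_dvd hpp.pos h1
    have h3 : p * 1 < p * p := Nat.mul_lt_mul_of_pos_left hpp.one_lt hpp.pos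
    nlinarith
  have hC : Subgroup.centralizer (((P : Subgroup G)) : Set G) = (P : Subgroup G) := by
    apply le_antisymm (centralizer_sylow_le hα G P)
    intro y hy
    rw [Subgroup.mem_centralizer_iff]
    intro z hz
    haveI : IsCyclic (P : Subgroup G) := isCyclic_of_prime_card (p := p) hPc
    letI := IsCyclic.commGroup (α := (P : Subgroup G))
    have h1 : (⟨z, hz⟩ : (P : Subgroup G)) * (⟨y, hy⟩ : (P : Subgroup G)) = ⟨y, hy⟩ * ⟨z, hz⟩ := mul_comm _ _
    exact congrArg Subtype.val h1
  have hE_le : E ≤ Subgroup.normalizer (((P : Subgroup G)) : Set G) := by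
    rw [← hPE]
    exact le_sup_right
  have hE1 : E ≠ ⊥ := by
    intro h
    have h1 : Subgroup.normalizer (E : Set G) = ⊤ := by
      rw [h]
      exact Subgroup.normalizer_eq_top_iff.mpr inferInstance
    rw [h1, Subgroup.card_top, h, Subgroup.card_bot] at hNE
    haveI := finite_irrCharacter (G := G)
    letI := Fintype.ofFinite (IrrCharacter G)
    have h2 := sum_charDegree_sq (G := G)
    have h3 : charDegree (χ : G → ℂ) ^ 2 ≤ ∑ ψ : IrrCharacter G, charDegree (ψ : G → ℂ) ^ 2 :=
      Finset.single_le_sum (f := fun ψ : IrrCharacter G => charDegree (ψ : G → ℂ) ^ 2) (fun _ _ => Nat.zero_le _)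
        (Finset.mem_univ χ)
    rw [h2, hχd, hNE] at h3
    have h4 := hpp.two_le
    nlinarith
  have hcyc : IsCyclic E := by
    haveI : IsCyclic (P : Subgroup G) := isCyclic_of_prime_card (p := p) hPc
    haveI : Fact (Nat.card (P : Subgroup G)).Prime := ⟨by rw [hPc]; exact hpp⟩
    haveI : IsCyclic (MulAut (P : Subgroup G)) :=
      isCyclic_of_surjective (IsCyclic.mulAutMulEquiv (P : Subgroup G)).symm.toMonoidHom
        (IsCyclic.mulAutMulEquiv (P : Subgroup G)).symm.surjective
    let f : E →* MulAut (P : Subgroup G) :=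
      ((P : Subgroup G).normalizerMonoidHom).comp (Subgroup.inclusion hE_le)
    have hf : Function.Injective f := by
      rw [injective_iff_map_eq_one]
      intro x hx
      have hx' : (x : G) ∈ Subgroup.centralizer (((P : Subgroup G)) : Set G) := by
        rw [Subgroup.mem_centralizer_iff]
        intro y hy
        have h1 := congrArg (fun a : MulAut (P : Subgroup G) => ((a ⟨y, hy⟩ : (P : Subgroup G)) : G)) hx
        have h2 : (x : G) * y * (x : G)⁻¹ = y := h1
        exact (mul_inv_eq_iff_eq_mul.mp h2).symm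
      rw [hC] at hx'
      have h3 : (x : G) ∈ (P : Subgroup G) ⊓ E := ⟨hx', x.2⟩
      rw [hPE', Subgroup.mem_bot] at h3
      exact Subtype.ext h3
    exact isCyclic_of_injective f hf
  have hpre : Pre p (P : Subgroup G) E := ⟨hPc, hp2, hPE', hPE.symm, hC, hE1⟩
  obtain ⟨n, ρ, hρ, hρχ⟩ := χ.2
  have hχ1 : (χ : G → ℂ) 1 = p := by
    rw [← charDegree_natCast (isCharacter_of_isIrrCharacter χ.2), hχd]
  have hχP : ∀ y ∈ (P : Subgroup G), y ≠ 1 → (χ : G → ℂ) y = 0 := by
    intro y hy hy1
    haveI := hρ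
    have hy2 : y ^ p = 1 := by
      have h1 := pow_card_eq_one' (x := (⟨y, hy⟩ : (P : Subgroup G)))
      rw [hPc] at h1
      simpa using congrArg Subtype.val h1
    have hord : orderOf y = p := orderOf_eq_prime hy2 hy1
    have hfin : finrank ℂ (Fin n → ℂ) = p := by
      rw [← hχd, ← hρχ, charDegree_character]
    have h3 := Cfsg.Agent.Lib.Char.DefectZero.character_eq_zero_of_defect_zero ρ p 1 hpp
      (by rw [pow_one, ← hPc]; exact Subgroup.card_subgroup_dvd_card _) hp2 (by rw [hfin, pow_one]) y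
      (by rw [hord])
    rwa [hρχ] at h3
  obtain ⟨lam, hlam⟩ := hpre.exists_lam ρ (by rw [hρχ]; exact hχ1) (by rw [hρχ]; exact hχP)
  rw [hρχ] at hlam
  have huniq' : ∀ ψ : G → ℂ, IsIrrCharacter G ψ → ψ 1 = p → ψ = χ := by
    intro ψ hψ h1
    have h2 : charDegree ψ = p := by
      have h3 := charDegree_natCast (isCharacter_of_isIrrCharacter hψ)
      rw [h1] at h3
      exact_mod_cast h3
    have := huniq ⟨ψ, hψ⟩ h2
    exact congrArg Subtype.val this
  have hperf := hpre.hperf χ.2 hχ1 huniq' hlam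
  have hlam1 : ∀ x : E, lam x = 1 := by
    refine lam_eq_one hperf ρ (Representation.ofMulAction ℂ G α) ?_
    intro x
    rw [hρχ, character_ofMulAction]
    by_cases hx1 : x = 1
    · subst hx1
      have h1 : Nat.card (fixedBy α ((1 : E) : G)) = p := by
        rw [← hα, ← Nat.card_eq_fintype_card]
        apply Nat.card_congr
        refine ⟨fun a => a.1, fun a => ⟨a, by simp⟩, fun a => rfl, fun a => rfl⟩
      rw [h1]
      simp [hχ1]
    · rw [hlam x hx1]
      have hxP : (x : G) ∉ (P : Subgroup G) := by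
        intro h
        have h3 : (x : G) ∈ (P : Subgroup G) ⊓ E := ⟨h, x.2⟩
        rw [hPE', Subgroup.mem_bot] at h3
        exact hx1 (Subtype.ext h3)
      rw [card_fixed hα G P (hE_le x.2) hxP]
      simp [add_comm]
  refine
    { hT := ?_
      hPc := hPc
      hp2 := hp2
      hPE := hPE'
      hB := hPE.symm
      hC := hC
      hcyc := hcyc
      hE1 := hE1
      hperf := hperf
      hχ := χ.2
      hχ1 := hχ1
      hχP := hχP
      hχE := ?_
      hχr := ?_ }
  · refine ⟨hu, huE, ?_, ?_, ?_⟩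
    · intro a ha
      by_cases haE : a ∈ E
      · exact Or.inl haE
      · right
        let M : Subgroup G := Subgroup.normalizer (E : Set G)
        have hEM : E ≤ M := Subgroup.le_normalizer
        have hidx : (E.subgroupOf M).index = 2 := by
          have h1 := Subgroup.card_mul_index (E.subgroupOf M)
          have h2 : Nat.card (E.subgroupOf M) = Nat.card E :=
            Nat.card_congr (Subgroup.subgroupOfEquivOfLe hEM).toEquiv
          rw [h2, hNE, mul_comm] at h1
          exact Nat.eq_of_mul_eq_mul_right Nat.card_pos h1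
        have h3 := (Subgroup.mul_mem_iff_of_index_two hidx (a := (⟨u, hu⟩ : M)⁻¹) (b := (⟨a, ha⟩ : M))).mpr (by
          constructor
          · intro h4
            exfalso
            apply huE
            have h5 : ((⟨u, hu⟩ : M)⁻¹ : M) ∈ E.subgroupOf M := h4
            have h6 := (E.subgroupOf M).inv_mem h5
            simpa [Subgroup.mem_subgroupOf] using h6
          · intro h4
            exact absurd (Subgroup.mem_subgroupOf.mp h4) haE)
        simpa [Subgroup.mem_subgroupOf] using h3
    · intro g x hx hx1 hgx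
      by_contra hg
      have h1 := hTI g hg
      have h2 : g * x * g⁻¹ ∈ E ⊓ E.map (MulAut.conj g).toMonoidHom := ⟨hgx, ⟨x, hx, rfl⟩⟩
      rw [h1, Subgroup.mem_bot] at h2
      apply hx1
      have h3 : x = g⁻¹ * (g * x * g⁻¹) * g := by group
      rw [h3, h2]
      group
    · letI := IsCyclic.commGroup (α := E)
      exact fun a b => mul_comm a b
  · intro x hx hx1
    have h1 := hlam ⟨x, hx⟩ (fun h => hx1 (congrArg Subtype.val h))
    rw [hlam1] at h1
    simpa using h1
  · intro g
    have h1 := huniq' (fun g => conj ((χ : G → ℂ) g)) (Cfsg.Agent.Lib.CharX.Conj.isIrr_conj χ.2) (by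
      simp [hχ1])
    exact congrFun h1 g

end Cfsg.Agent.Lib.Perm7.PermSetup
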