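import Cfsg.Agent.S0799
import Cfsg.Agent.Lib.Classical.SL2.Tori

/-!
# Galois' theorem on the subgroups of prime index of `PSL₂(p)`
-/

set_option autoImplicit false
set_option linter.unusedSectionVars false
set_option linter.style.haveILetI false

namespace Cfsg.Agent.Lib.Perm7.PrimeList

open Matrix Cfsg.Agent.Lib.Classical.SL2.Tori

local notation "PSL2" => ProjectiveSpecialLinearGroup (Fin 2)

theorem num_le {p c : ℕ} (h5 : 5 ≤ p) (h : 2 * c = (p - 1) * (p + 1)) (hc : c ≤ p + 1) : False := by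
  obtain ⟨q, rfl⟩ : ∃ q, p = q + 5 := ⟨p - 5, by omega⟩
  simp only [Nat.add_succ_sub_one] at h
  nlinarith

theorem num_val {p c v : ℕ} (h5 : 5 ≤ p) (h : 2 * c = (p - 1) * (p + 1)) (hc : c = v) :
    (p - 1) * (p + 1) = 2 * v := by
  rw [← h, hc]

theorem num_sq {p v : ℕ} (h5 : 5 ≤ p) (h : (p - 1) * (p + 1) = v) : p * p = v + 1 := by
  obtain ⟨q, rfl⟩ : ∃ q, p = q + 5 := ⟨p - 5, by omega⟩
  simp only [Nat.add_succ_sub_one] at h
  nlinarith

theorem prime_list {p : ℕ} [hp : Fact p.Prime] (h5 : 5 ≤ p) (H : Subgroup (PSL2 (ZMod p)))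
    (hidx : H.index = p) (hsimple : ∀ K : Subgroup (PSL2 (ZMod p)), K.Normal → K = ⊥ ∨ K = ⊤) :
    p = 5 ∨ p = 7 ∨ p = 11 := by
  classical
  have hpp : p.Prime := hp.out
  have hc := card_psl (F := ZMod p)
  rw [ZMod.card p] at hc
  have hodd : Odd p := hpp.odd_of_ne_two (by omega)
  have hgcd : Nat.gcd 2 (p - 1) = 2 := by
    apply Nat.gcd_eq_left
    obtain ⟨k, hk⟩ := hodd
    exact ⟨k, by omega⟩
  rw [hgcd] at hc
  have hH := H.card_mul_index
  rw [hidx] at hH
  set N := Nat.card (PSL2 (ZMod p)) with hN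
  have hH2 : 2 * Nat.card H = (p - 1) * (p + 1) := by
    have h1 : Nat.card H * p * 2 = p * ((p - 1) * (p + 1)) := by rw [hH]; exact hc
    have h2 : p * (2 * Nat.card H) = p * ((p - 1) * (p + 1)) := by rw [← h1]; ring
    exact Nat.eq_of_mul_eq_mul_left hpp.pos h2
  obtain ⟨q, hq⟩ : ∃ q, p = q + 5 := ⟨p - 5, by omega⟩
  have hcop : Nat.Coprime p (Nat.card H) := by
    rw [hpp.coprime_iff_not_dvd]
    intro h
    have h1 : p ∣ (p - 1) * (p + 1) := by
      rw [← hH2]
      exact h.mul_left 2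
    rcases (Nat.Prime.dvd_mul hpp).mp h1 with h2 | h2
    · have := Nat.le_of_dvd (by omega) h2
      omega
    · have h3 : p ∣ 1 := (Nat.dvd_add_right (dvd_refl p)).mp h2
      have := Nat.le_of_dvd (by omega) h3
      omega
  rcases Cfsg.Agent.S0799.result (F := ZMod p) (ZMod.card p) p H with hA | hB | hC | hD | hE | hF
  · exfalso
    obtain ⟨k, hk, hk2⟩ := hA
    have hk3 : k ≤ (p + 1) / 2 := by
      rw [hgcd] at hk
      rcases hk with h | h
      · exact Nat.le_of_dvd (by omega) h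
      · have := Nat.le_of_dvd (by omega) h
        omega
    have hk4 : Nat.card H ≤ 2 * k := by
      rcases hk2 with ⟨-, h⟩ | ⟨⟨e⟩⟩
      · omega
      · rw [Nat.card_congr e.toEquiv, DihedralGroup.nat_card]
    have hk5 : 2 * k ≤ p + 1 := by omega
    exact num_le h5 hH2 (by omega)
  · exfalso
    obtain ⟨Q, K, hK, ⟨e⟩⟩ := hB
    have h1 : Nat.card H ∣ Nat.card (Subgroup.normalizer ((Q : Subgroup (PSL2 (ZMod p))) : Set (PSL2 (ZMod p)))) := by
      rw [Nat.card_congr e.toEquiv]
      exact Subgroup.card_dvd_of_le hK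
    have hpdvd : p ∣ N := by
      rw [← hH]
      exact dvd_mul_left _ _
    have h2 : p ∣ Nat.card (Subgroup.normalizer ((Q : Subgroup (PSL2 (ZMod p))) : Set (PSL2 (ZMod p)))) := by
      have h3 := Q.dvd_card_of_dvd_card hpdvd
      exact h3.trans (Subgroup.card_dvd_of_le Subgroup.le_normalizer)
    have h3 : N ∣ Nat.card (Subgroup.normalizer ((Q : Subgroup (PSL2 (ZMod p))) : Set (PSL2 (ZMod p)))) := by
      rw [← hH, mul_comm]
      exact hcop.mul_dvd_of_dvd_of_dvd h2 h1
    have h4 : Subgroup.normalizer ((Q : Subgroup (PSL2 (ZMod p))) : Set (PSL2 (ZMod p))) = ⊤ := by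
      apply Subgroup.eq_top_of_card_eq
      exact Nat.dvd_antisymm (Subgroup.card_subgroup_dvd_card _) h3
    have h5' : (Q : Subgroup (PSL2 (ZMod p))).Normal := Subgroup.normalizer_eq_top_iff.mp h4
    have hQp : p ∣ Nat.card Q := Q.dvd_card_of_dvd_card hpdvd
    rcases hsimple _ h5' with h6 | h6
    · rw [h6, Subgroup.card_bot] at hQp
      have := Nat.le_of_dvd one_pos hQp
      omega
    · -- then the group is a `p`-group
      have h8 : IsPGroup p (PSL2 (ZMod p)) := by
        have h9 := Q.isPGroup'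
        rw [h6] at h9
        exact (IsPGroup.iff_card.mpr (by
          obtain ⟨n, hn⟩ := IsPGroup.iff_card.mp h9
          exact ⟨n, by rw [← hn, Subgroup.card_top]⟩))
      obtain ⟨n, hn⟩ := IsPGroup.iff_card.mp h8
      have h10 : Nat.card H ∣ p ^ n := by
        rw [← hn]
        exact Subgroup.card_subgroup_dvd_card H
      have h11 := (Nat.Coprime.pow_left n hcop).symm
      have h12 : Nat.card H = 1 := Nat.eq_one_of_dvd_coprimes h11 dvd_rfl h10
      exact num_le h5 hH2 (by omega)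
  · left
    obtain ⟨e⟩ := hC
    have h1 : Nat.card H = 12 := by
      rw [Nat.card_congr e.toEquiv, nat_card_alternatingGroup]
      simp [Nat.factorial]
    have h2 := num_sq h5 (num_val h5 hH2 h1)
    nlinarith
  · right; left
    obtain ⟨e⟩ := hD
    have h1 : Nat.card H = 24 := by
      rw [Nat.card_congr e.toEquiv, Nat.card_perm]
      simp [Nat.factorial]
    have h2 := num_sq h5 (num_val h5 hH2 h1)
    nlinarith
  · right; right
    obtain ⟨e⟩ := hE
    have h1 : Nat.card H = 60 := by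
      rw [Nat.card_congr e.toEquiv, nat_card_alternatingGroup]
      simp [Nat.factorial]
    have h2 := num_sq h5 (num_val h5 hH2 h1)
    nlinarith
  · exfalso
    obtain ⟨K, iK, iF, m, hm, hH'⟩ := hF
    letI := iK
    letI := iF
    have hm1 : Fintype.card K = p ∧ m = 1 := (Nat.Prime.pow_eq_iff hpp).mp hm
    have hpos : 0 < (p - 1) * (p + 1) := Nat.mul_pos (by omega) (by omega)
    rcases hH' with ⟨⟨e⟩⟩ | ⟨⟨e⟩⟩
    · have h1 := card_psl (F := K)
      rw [← Nat.card_congr e.toEquiv, hm1.1, hgcd, mul_comm] at h1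
      rw [hH2] at h1
      have h3 : (p - 1) * (p + 1) = p * ((p - 1) * (p + 1)) := h1
      have h4 : 1 * ((p - 1) * (p + 1)) = p * ((p - 1) * (p + 1)) := by rw [one_mul]; exact h3
      have h5' := Nat.eq_of_mul_eq_mul_right hpos h4
      omega
    · have h1 := card_pgl (F := K)
      rw [← Nat.card_congr e.toEquiv, hm1.1] at h1
      rw [h1] at hH2
      have h3 : (p - 1) * (p + 1) ≤ 2 * (p * ((p - 1) * (p + 1))) :=
        le_trans (Nat.le_mul_of_pos_left _ hpp.pos) (Nat.le_mul_of_pos_left _ (by norm_num))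
      have h4 : 2 * (p * ((p - 1) * (p + 1))) = (2 * p) * ((p - 1) * (p + 1)) := by ring
      have h5' : (2 * p) * ((p - 1) * (p + 1)) = 1 * ((p - 1) * (p + 1)) := by rw [← h4, hH2, one_mul]
      have h6 := Nat.eq_of_mul_eq_mul_right hpos h5'
      omega

end Cfsg.Agent.Lib.Perm7.PrimeList
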