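import Cfsg.Agent.Lib.Perm7.Simple
import Cfsg.Agent.Lib.Char.DetChar
import Cfsg.Agent.Lib.Char.RepEquiv
import Cfsg.Agent.Lib.CharX.Conj
import Cfsg.Agent.Lib.CharZeros.Gallagher

/-!
# From the hypotheses of the theorem to the system `Sys`: the character part
-/

set_option autoImplicit false
set_option linter.unusedSectionVars false
set_option linter.style.haveILetI false

namespace Cfsg.Agent.Lib.Perm7.Setup

open scoped BigOperators ComplexConjugate
open Cfsg Module Cfsg.Agent.Lib.Char.Induced Cfsg.Agent.Lib.Char.Ortho Cfsg.Agent.Lib.Char.Linear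
open Cfsg.Agent.Lib.Char.Basic Cfsg.Agent.Lib.Char.GenLattice Cfsg.Agent.Lib.Char.Complete
open Cfsg.Agent.Lib.Perm7.Label Cfsg.Agent.Lib.Perm7.Integ Cfsg.Agent.Lib.Perm7.Core
open Cfsg.Agent.Lib.Char.Degree Cfsg.Agent.Lib.Char.DetChar

universe u

variable {G : Type u} [Group G]

/-- A first part of the hypotheses. -/
structure Pre (p : ℕ) (P E : Subgroup G) : Prop where
  hPc : Nat.card P = p
  hp2 : ¬ p ^ 2 ∣ Nat.card G
  hPE : P ⊓ E = ⊥
  hB : Subgroup.normalizer (P : Set G) = P ⊔ E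
  hC : Subgroup.centralizer (P : Set G) = P
  hE1 : E ≠ ⊥

section Group

variable {p : ℕ} [hp : Fact p.Prime] {P E : Subgroup G} (S : Pre p P E)
include S

theorem Pre.le_B : P ≤ Subgroup.normalizer (P : Set G) := by
  rw [S.hB]; exact le_sup_left

theorem Pre.E_le_B : E ≤ Subgroup.normalizer (P : Set G) := by
  rw [S.hB]; exact le_sup_right

theorem Pre.hnorm : ∀ x ∈ E, ∀ y ∈ P, x * y * x⁻¹ ∈ P := fun x hx y hy =>
  (Subgroup.mem_set_normalizer_iff.mp (S.E_le_B hx) y).mp hy

/-- `E` acts fixed point freely on `P`. -/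
theorem Pre.fpf {x : G} (hx : x ∈ E) (hx1 : x ≠ 1) {y : G} (hy : y ∈ P) (hc : x * y = y * x) : y = 1 := by
  by_contra hy1
  apply hx1
  have hP : IsCyclic P := isCyclic_of_prime_card (p := p) S.hPc
  have hcen : x ∈ Subgroup.centralizer (P : Set G) := by
    rw [Subgroup.mem_centralizer_iff]
    intro z hz
    -- `z` is a power of `y`
    have hz' : z ∈ Subgroup.zpowers y := by
      have h1 : (⟨y, hy⟩ : P) ≠ 1 := fun h => hy1 (congrArg Subtype.val h)
      have h2 := zpowers_eq_top_of_prime_card (G := P) S.hPc h1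
      have h3 : (⟨z, hz⟩ : P) ∈ Subgroup.zpowers (⟨y, hy⟩ : P) := by rw [h2]; trivial
      obtain ⟨k, hk⟩ := Subgroup.mem_zpowers_iff.mp h3
      exact Subgroup.mem_zpowers_iff.mpr ⟨k, by simpa using congrArg Subtype.val hk⟩
    obtain ⟨k, rfl⟩ := Subgroup.mem_zpowers_iff.mp hz'
    have hcomm : Commute x y := hc
    exact (hcomm.zpow_right k).eq.symm
  rw [S.hC] at hcen
  have : x ∈ P ⊓ E := ⟨hcen, hx⟩
  rw [S.hPE] at this
  simpa using this

/-- The map `z ↦ z x z⁻¹ x⁻¹` on `P` is bijective, so each `y x` is conjugate to `x`. -/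
theorem Pre.exists_conj_of_mem {x : G} (hx : x ∈ E) (hx1 : x ≠ 1) {y : G} (hy : y ∈ P) :
    ∃ z ∈ P, y * x = z * x * z⁻¹ := by
  classical
  haveI : Finite P := Nat.finite_of_card_ne_zero (by rw [S.hPc]; exact hp.out.ne_zero)
  let f : P → P := fun z => ⟨z * (x * (z : G)⁻¹ * x⁻¹), P.mul_mem z.2 (S.hnorm x hx _ (P.inv_mem z.2))⟩
  have hinj : Function.Injective f := by
    intro a b hab
    have h1 : (a : G) * (x * (a : G)⁻¹ * x⁻¹) = b * (x * (b : G)⁻¹ * x⁻¹) := congrArg Subtype.val hab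
    have h2 : x * ((b : G)⁻¹ * a) = ((b : G)⁻¹ * a) * x := by
      have h3 : (b : G)⁻¹ * (a * (x * (a : G)⁻¹ * x⁻¹)) * x * a = (b : G)⁻¹ * (b * (x * (b : G)⁻¹ * x⁻¹)) * x * a := by
        rw [h1]
      calc x * ((b : G)⁻¹ * a) = (b : G)⁻¹ * (b * (x * (b : G)⁻¹ * x⁻¹)) * x * a := by group
        _ = (b : G)⁻¹ * (a * (x * (a : G)⁻¹ * x⁻¹)) * x * a := h3.symm
        _ = ((b : G)⁻¹ * a) * x := by group
    have h4 := S.fpf hx hx1 (P.mul_mem (P.inv_mem b.2) a.2) h2
    apply Subtype.ext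
    have : (a : G) = b := by
      have h5 : (b : G) * ((b : G)⁻¹ * a) = b := by rw [h4, mul_one]
      simpa using h5
    exact this
  obtain ⟨z, hz⟩ := (Finite.injective_iff_surjective.mp hinj) ⟨y, hy⟩
  refine ⟨z, z.2, ?_⟩
  have h1 : (z : G) * (x * (z : G)⁻¹ * x⁻¹) = y := congrArg Subtype.val hz
  rw [← h1]
  group

/-- Class function values on `y x`. -/
theorem Pre.cf_mul {F : G → ℂ} (hF : IsClassFunction G F) {x : G} (hx : x ∈ E) (hx1 : x ≠ 1) {y : G} (hy : y ∈ P) :
    F (y * x) = F x := by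
  obtain ⟨z, -, hz⟩ := S.exists_conj_of_mem hx hx1 hy
  rw [hz]
  exact hF x z

end Group

section Chars

variable [Fintype G] {p : ℕ} [hp : Fact p.Prime] {P E : Subgroup G} [Fintype P] [Fintype E] (S : Pre p P E)
include S

/-- A character of degree `p` vanishing on `P#` has a one-dimensional fixed space, on which `E` acts
with the character values on `E#`. -/
theorem Pre.exists_lam {n : ℕ} (ρ : Representation ℂ G (Fin n → ℂ)) (hχ1 : ρ.character 1 = p)
    (hχP : ∀ y ∈ P, y ≠ 1 → ρ.character y = 0) :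
    ∃ lam : E →* ℂˣ, ∀ x : E, x ≠ 1 → ρ.character x = ((lam x : ℂˣ) : ℂ) := by
  classical
  have hcP : Fintype.card P = p := by rw [← Nat.card_eq_fintype_card, S.hPc]
  have hp0 : (p : ℂ) ≠ 0 := Nat.cast_ne_zero.mpr hp.out.ne_zero
  have hsum : ∑ y : P, ρ.character (y : G) = p := by
    rw [sum_P_of_const _ 0 hχP, hχ1]
    simp
  have hfix : fixDim ρ P = 1 := by
    have h1 := fixDim_eq ρ P
    rw [hsum, hcP, inv_mul_cancel₀ hp0] at h1
    exact_mod_cast h1
  obtain ⟨v₀, hv₀, hspan⟩ := finrank_eq_one_iff'.mp hfix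
  have hv₀0 : (v₀ : Fin n → ℂ) ≠ 0 := fun h => hv₀ (Subtype.ext h)
  have hinv : ∀ y ∈ P, ρ y (v₀ : Fin n → ℂ) = v₀ := fun y hy => v₀.2 ⟨y, hy⟩
  have hstep : ∀ x : E, ∃ c : ℂ, ρ x (v₀ : Fin n → ℂ) = c • (v₀ : Fin n → ℂ) := by
    intro x
    have hmem : ρ x (v₀ : Fin n → ℂ) ∈ Representation.invariants (MonoidHom.comp ρ P.subtype) := by
      intro y
      show ρ (y : G) (ρ x (v₀ : Fin n → ℂ)) = _
      have h1 : (x : G)⁻¹ * y * x ∈ P := by
        have := S.hnorm (x : G)⁻¹ (E.inv_mem x.2) y y.2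
        simpa using this
      have h2 : ρ (y : G) (ρ x (v₀ : Fin n → ℂ)) = ρ x (ρ ((x : G)⁻¹ * y * x) (v₀ : Fin n → ℂ)) := by
        rw [← Module.End.mul_apply, ← Module.End.mul_apply, ← map_mul, ← map_mul]
        congr 2
        group
      rw [h2, hinv _ h1]
    obtain ⟨c, hc⟩ := hspan ⟨_, hmem⟩
    exact ⟨c, (congrArg Subtype.val hc).symm⟩
  choose c hc using hstep
  have hcuniq : ∀ (x : E) (d : ℂ), ρ x (v₀ : Fin n → ℂ) = d • (v₀ : Fin n → ℂ) → c x = d := by
    intro x d hd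
    rw [hc x] at hd
    exact smul_left_injective ℂ hv₀0 hd
  let f : E →* ℂ :=
    { toFun := c
      map_one' := by
        apply hcuniq
        simp
      map_mul' := by
        intro a b
        apply hcuniq
        simp only [Subgroup.coe_mul, map_mul, Module.End.mul_apply]
        rw [hc b, map_smul, hc a, smul_smul, mul_comm] }
  refine ⟨f.toHomUnits, fun x hx1 => ?_⟩
  have hcf : ∀ x : E, ((f.toHomUnits x : ℂˣ) : ℂ) = c x := fun x => rfl
  rw [hcf]
  -- the rank one formula, with the trivial group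
  have hnorm0 : ∀ x ∈ (⊥ : Subgroup G), ∀ y ∈ P, x * y * x⁻¹ ∈ P := by
    intro x hx y hy
    rw [Subgroup.mem_bot] at hx
    subst hx
    simpa using hy
  let θ0 : (⊥ : Subgroup G) →* ℂˣ := 1
  have hbet : ∀ g : G, bet P ⊥ θ0 ρ.character g = ∑ y : P, ρ.character (g * y) := by
    intro g
    unfold bet
    rw [Fintype.sum_unique]
    refine Finset.sum_congr rfl fun y _ => ?_
    have hd : (default : (⊥ : Subgroup G)) = 1 := Subsingleton.elim _ _
    rw [hd]
    simp [tb, θ0]
  have hc1 : Fintype.card (⊥ : Subgroup G) = 1 := by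
    rw [← Nat.card_eq_fintype_card]
    simp
  have h1 : bet P ⊥ θ0 ρ.character 1 = ((Fintype.card P * Fintype.card (⊥ : Subgroup G) : ℕ) : ℂ) := by
    rw [hbet, hc1, hcP]
    simp only [one_mul, mul_one]
    exact hsum
  have hvE : IsEig ρ P ⊥ θ0 (v₀ : Fin n → ℂ) := by
    refine ⟨hinv, fun x => ?_⟩
    have : x = 1 := Subsingleton.elim _ _
    subst this
    simp [θ0]
  have h2 := piOp_rho_eig θ0 hnorm0 ρ h1 hvE hv₀0 (x : G)
  have h3 := piOp_eig θ0 hnorm0 ρ hvE
  rw [hc x, map_smul, h3, hbet, hc1, hcP] at h2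
  have hx1' : (x : G) ≠ 1 := fun h => hx1 (Subtype.ext h)
  have h4 : ∀ y : P, ρ.character ((x : G) * y) = ρ.character x := by
    intro y
    have h5 : IsClassFunction G ρ.character := isClassFunction_of_isCharacter ⟨n, ρ, rfl⟩
    rw [← S.cf_mul h5 x.2 hx1' y.2]
    exact cf_comm h5 _ _
  simp only [h4, Finset.sum_const, Finset.card_univ, hcP, nsmul_eq_mul, mul_one, smul_smul] at h2
  have h6 := smul_left_injective ℂ hv₀0 h2
  have h7 : c x * (p : ℂ) = (p : ℂ) * ρ.character x := by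
    simpa using h6
  rw [mul_comm] at h7
  exact (mul_left_cancel₀ hp0 h7).symm

/-- The group has no nontrivial linear character. -/
theorem Pre.hperf {χ : G → ℂ} (hχ : IsIrrCharacter G χ) (hχ1 : χ 1 = p)
    (huniq : ∀ ψ : G → ℂ, IsIrrCharacter G ψ → ψ 1 = p → ψ = χ)
    {lam : E →* ℂˣ} (hlam : ∀ x : E, x ≠ 1 → χ x = ((lam x : ℂˣ) : ℂ)) (l : G →* ℂˣ) : l = 1 := by
  classical
  have h1 : ∀ g, ((l g : ℂˣ) : ℂ) * χ g = χ g := by
    intro g
    have h2 := huniq (fun g => ((l g : ℂˣ) : ℂ) * χ g)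
      (Cfsg.Agent.Lib.CharZeros.Gallagher.isIrrCharacter_mul_linear
        (isCharacter_of_isIrrCharacter (isIrrCharacter_of_hom l)) (by simp) hχ) (by simp [hχ1])
    exact congrFun h2 g
  have hE : ∀ x : E, x ≠ 1 → l x = 1 := by
    intro x hx
    have h2 := h1 x
    rw [hlam x hx] at h2
    have h3 := mul_right_cancel₀ (Units.ne_zero _) (h2.trans (one_mul _).symm)
    exact Units.ext h3
  obtain ⟨x₀, hx₀⟩ : ∃ x : E, x ≠ 1 := by
    by_contra hall
    push Not at hall
    apply S.hE1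
    rw [eq_bot_iff]
    intro x hx
    have := hall ⟨x, hx⟩
    simpa using congrArg Subtype.val this
  have hP : ∀ y ∈ P, l y = 1 := by
    intro y hy
    have hx1 : (x₀ : G) ≠ 1 := fun h => hx₀ (Subtype.ext h)
    have h2 := S.cf_mul (isClassFunction_of_isIrrCharacter hχ) x₀.2 hx1 hy
    have h3 := h1 (y * x₀)
    rw [h2, hlam x₀ hx₀] at h3
    have h4 := mul_right_cancel₀ (Units.ne_zero _) (h3.trans (one_mul _).symm)
    have h5 : l (y * x₀) = 1 := Units.ext h4
    rw [map_mul, hE x₀ hx₀, mul_one] at h5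
    exact h5
  -- Frattini
  have hK : (l.ker).Normal := inferInstance
  have hfac : (Nat.card G).factorization p = 1 := by
    have hpp := hp.out
    have hdvd : p ∣ Nat.card G := by
      rw [← S.hPc]
      exact Subgroup.card_subgroup_dvd_card P
    have h2 : 1 ≤ (Nat.card G).factorization p :=
      (hpp.dvd_iff_one_le_factorization Nat.card_pos.ne').mp hdvd
    have h3 : ¬ 2 ≤ (Nat.card G).factorization p := fun h =>
      S.hp2 ((hpp.pow_dvd_iff_le_factorization Nat.card_pos.ne').mpr h)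
    omega
  let Q : Sylow p G := Sylow.ofCard P (by rw [hfac, pow_one, S.hPc])
  have hQ : (Q : Subgroup G) = P := rfl
  have hPK : P ≤ l.ker := fun y hy => hP y hy
  have h2 := Q.normalizer_sup_eq_top' (N := l.ker) (by rw [hQ]; exact hPK)
  have h5 : Subgroup.normalizer ((Q : Subgroup G) : Set G) = P ⊔ E := by rw [hQ, S.hB]
  have h3 : l.ker = ⊤ := by
    rw [eq_top_iff, ← h2]
    show Subgroup.normalizer ((Q : Subgroup G) : Set G) ⊔ l.ker ≤ _
    rw [h5]
    refine sup_le (sup_le hPK ?_) le_rfl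
    intro x hx
    by_cases hx1 : x = 1
    · rw [hx1]
      exact l.ker.one_mem
    · exact hE ⟨x, hx⟩ (fun h => hx1 (congrArg Subtype.val h))
  ext g
  have h6 : g ∈ l.ker := by rw [h3]; trivial
  rw [show l g = 1 from h6]
  rfl

omit S in
/-- The determinant of a representation of a group without linear characters. -/
theorem det_eq_one_of_perfect (hperf : ∀ l : G →* ℂˣ, l = 1) {V : Type*} [AddCommGroup V] [Module ℂ V]
    [FiniteDimensional ℂ V] (ρ : Representation ℂ G V) (g : G) : LinearMap.det (ρ g) = 1 := by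
  rw [← coe_detRep, hperf (detRep ρ)]
  simp

omit S in
/-- The linear character on the fixed space of `P` is trivial. -/
theorem lam_eq_one (hperf : ∀ l : G →* ℂˣ, l = 1) {V W : Type*} [AddCommGroup V] [Module ℂ V] [FiniteDimensional ℂ V]
    [AddCommGroup W] [Module ℂ W] [FiniteDimensional ℂ W]
    (ρ : Representation ℂ G V) (σ : Representation ℂ G W) {lam : E →* ℂˣ}
    (h : ∀ x : E, ρ.character x + 1 = σ.character x + ((lam x : ℂˣ) : ℂ)) (x : E) : lam x = 1 := by
  classical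
  let ρ₁ : Representation ℂ E (V × ℂ) := Representation.prod (MonoidHom.comp ρ E.subtype) (homRep (1 : E →* ℂˣ))
  let ρ₂ : Representation ℂ E (W × ℂ) := Representation.prod (MonoidHom.comp σ E.subtype) (homRep lam)
  have hch : ρ₁.character = ρ₂.character := by
    show (Representation.prod (MonoidHom.comp ρ E.subtype) (homRep (1 : E →* ℂˣ))).character =
      (Representation.prod (MonoidHom.comp σ E.subtype) (homRep lam)).character
    rw [character_prod, character_prod, homRep_character, homRep_character]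
    funext a
    simp only [Pi.add_apply]
    have h1 := h a
    simpa [Representation.character] using h1
  obtain ⟨e⟩ := Cfsg.Agent.Lib.Char.RepEquiv.nonempty_equiv_of_character_eq ρ₁ ρ₂ hch
  have h2 := det_eq_of_equiv e x
  have h3 : LinearMap.det (ρ₁ x) = LinearMap.det (ρ (x : G)) * LinearMap.det (homRep (1 : E →* ℂˣ) x) :=
    LinearMap.det_prodMap _ _
  have h4 : LinearMap.det (ρ₂ x) = LinearMap.det (σ (x : G)) * LinearMap.det (homRep lam x) :=
    LinearMap.det_prodMap _ _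
  have hd : ∀ (l : E →* ℂˣ) (a : E), LinearMap.det (homRep l a) = ((l a : ℂˣ) : ℂ) := by
    intro l a
    change LinearMap.det (((l a : ℂˣ) : ℂ) • (LinearMap.id : ℂ →ₗ[ℂ] ℂ)) = _
    simp
  rw [h3, h4, hd, hd, det_eq_one_of_perfect hperf, det_eq_one_of_perfect hperf] at h2
  simp only [one_mul, MonoidHom.one_apply, Units.val_one] at h2
  exact Units.ext h2

end Chars

end Cfsg.Agent.Lib.Perm7.Setup
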