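import Cfsg.Agent.Lib.Perm7.Odd
import Cfsg.Agent.Lib.ModRep.BlockTh

/-!
# Normal subgroups in the setting of the perm7 theorem
-/

set_option autoImplicit false
set_option linter.unusedSectionVars false
set_option linter.style.haveILetI false

namespace Cfsg.Agent.Lib.Perm7.Core

open Cfsg Cfsg.Agent.Lib.Perm7.Exc

universe u

variable {G : Type u} [Group G] [Finite G] {p : ℕ} [hp : Fact p.Prime] {P E : Subgroup G}
  {u : G} {χp : G → ℂ} (S : Sys p P E u χp)
include S

theorem Sys.dvd_card : p ∣ Nat.card G := by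
  rw [← S.hPc]
  exact Subgroup.card_subgroup_dvd_card P

theorem Sys.factorization_eq : (Nat.card G).factorization p = 1 := by
  have hpp := hp.out
  have h2 : 1 ≤ (Nat.card G).factorization p :=
    (hpp.dvd_iff_one_le_factorization Nat.card_pos.ne').mp S.dvd_card
  have h3 : ¬ 2 ≤ (Nat.card G).factorization p := fun h =>
    S.hp2 ((hpp.pow_dvd_iff_le_factorization Nat.card_pos.ne').mpr h)
  omega

theorem Sys.exists_sylow : ∃ Q : Sylow p G, (Q : Subgroup G) = P :=
  ⟨Sylow.ofCard P (by rw [S.factorization_eq, pow_one, S.hPc]), rfl⟩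

/-- A normal subgroup containing `P` is everything. -/
theorem Sys.normal_top {K : Subgroup G} (hK : K.Normal) (hPK : P ≤ K) : K = ⊤ := by
  classical
  letI := Fintype.ofFinite G
  obtain ⟨Q, hQ⟩ := S.exists_sylow
  have h1 := Q.normalizer_sup_eq_top' (N := K) (by rw [hQ]; exact hPK)
  have h2 : E ⊔ K = ⊤ := by
    have h5 : Subgroup.normalizer ((Q : Subgroup G) : Set G) = P ⊔ E := by rw [hQ, S.hB]
    rw [eq_top_iff, ← h1]
    show Subgroup.normalizer ((Q : Subgroup G) : Set G) ⊔ K ≤ E ⊔ K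
    rw [h5]
    exact sup_le (sup_le (hPK.trans le_sup_right) le_sup_left) le_sup_right
  by_contra hne
  obtain ⟨g, hg⟩ : ∃ g, g ∉ K := by
    by_contra hall
    push Not at hall
    exact hne (eq_top_iff.mpr fun x _ => hall x)
  letI : Fintype (G ⧸ K) := Fintype.ofFinite _
  let T : Subgroup (G ⧸ K) := ⊤
  letI : Fintype T := Fintype.ofFinite _
  have hrep : ∀ a : G ⧸ K, ∃ x : E, (QuotientGroup.mk' K) (x : G) = a := by
    intro a
    obtain ⟨b, rfl⟩ := QuotientGroup.mk'_surjective K a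
    have hb : b ∈ E ⊔ K := by rw [h2]; trivial
    obtain ⟨x, hx, k, hk, rfl⟩ := Subgroup.mem_sup_of_normal_right.mp hb
    refine ⟨⟨x, hx⟩, ?_⟩
    have h6 : (QuotientGroup.mk' K) k = 1 := by
      rw [← MonoidHom.mem_ker, QuotientGroup.ker_mk']
      exact hk
    rw [map_mul, h6, mul_one]
  have hcomm : ∀ a b : T, a * b = b * a := by
    rintro ⟨a, -⟩ ⟨b, -⟩
    apply Subtype.ext
    obtain ⟨x, rfl⟩ := hrep a
    obtain ⟨y, rfl⟩ := hrep b
    show (QuotientGroup.mk' K) (x : G) * (QuotientGroup.mk' K) (y : G) = (QuotientGroup.mk' K) (y : G) * (QuotientGroup.mk' K) (x : G)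
    rw [← map_mul, ← map_mul]
    congr 1
    exact congrArg Subtype.val (S.hT.hcomm x y)
  have hc : (⟨QuotientGroup.mk' K g, trivial⟩ : T) ≠ 1 := by
    intro h
    apply hg
    have h3 : QuotientGroup.mk' K g = 1 := congrArg Subtype.val h
    rwa [← MonoidHom.mem_ker, QuotientGroup.ker_mk'] at h3
  obtain ⟨ψ, hψ⟩ := exists_hom_ne_one hcomm hc
  let l : G →* ℂˣ := ψ.comp ((QuotientGroup.mk' K).codRestrict T (fun _ => trivial))
  have h3 := S.hperf l
  apply hψ
  have h4 := DFunLike.congr_fun h3 g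
  exact h4

theorem Sys.le_of_dvd {K : Subgroup G} (hK : K.Normal) (hd : p ∣ Nat.card K) : P ≤ K := by
  classical
  letI := Fintype.ofFinite G
  obtain ⟨x, hx⟩ := exists_prime_orderOf_dvd_card' p hd
  have hcard : Nat.card (Subgroup.zpowers (x : G)) = p := by
    rw [Nat.card_zpowers, Subgroup.orderOf_coe, hx]
  obtain ⟨y, hy⟩ := Cfsg.Agent.Lib.ModRep.BlockTh.exists_conj_of_card S.hPc S.hp2 hcard
  intro z hz
  have h1 : y * z * y⁻¹ ∈ Subgroup.zpowers (x : G) := by
    rw [← hy]
    exact ⟨z, hz, rfl⟩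
  have h2 : Subgroup.zpowers (x : G) ≤ K := by
    rw [Subgroup.zpowers_le]
    exact x.2
  have h3 := hK.conj_mem _ (h2 h1) y⁻¹
  have h4 : y⁻¹ * (y * z * y⁻¹) * y⁻¹⁻¹ = z := by group
  rwa [h4] at h3

theorem Sys.not_normal : ¬ P.Normal := by
  intro h
  have h1 := S.normal_top h le_rfl
  apply S.hE1
  rw [eq_bot_iff]
  intro x hx
  have h2 : x ∈ P ⊓ E := ⟨by rw [h1]; trivial, hx⟩
  rwa [S.hPE] at h2

/-- The group is simple once all its nontrivial normal subgroups have order divisible by `p`. -/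
theorem Sys.simple (hN : ∀ K : Subgroup G, K.Normal → K ≠ ⊥ → p ∣ Nat.card K) {K : Subgroup G} (hK : K.Normal) :
    K = ⊥ ∨ K = ⊤ := by
  by_cases h : K = ⊥
  · exact Or.inl h
  · exact Or.inr (S.normal_top hK (S.le_of_dvd hK (hN K hK h)))

theorem Sys.center_eq_bot (hN : ∀ K : Subgroup G, K.Normal → K ≠ ⊥ → p ∣ Nat.card K) :
    Subgroup.center G = ⊥ := by
  rcases S.simple hN (K := Subgroup.center G) inferInstance with h | h
  · exact h
  · exfalso
    apply S.not_normal
    constructor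
    intro n hn g
    have h1 : g ∈ Subgroup.center G := by rw [h]; trivial
    have h2 : g * n = n * g := ((Subgroup.mem_center_iff.mp h1) n).symm
    rw [h2]
    simpa using hn

end Cfsg.Agent.Lib.Perm7.Core
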