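import Cfsg.Agent.Lib.Perm7.Exc
import Cfsg.Agent.Lib.Perm7.Integ

/-!
# The setting for the perm7 theorem

`P` of order `p`, `p ^ 2 ∤ |G|`, `N(P) = P ⋊ E` Frobenius, `C(P) = P`; `E` cyclic, T.I. with
`|N(E) : E| = 2`; `G` has no nontrivial linear character; `χp` an irreducible character of degree `p`
vanishing on `P#` and equal to `1` on `E#`.
-/

set_option autoImplicit false
set_option linter.unusedSectionVars false
set_option linter.style.haveILetI false

namespace Cfsg.Agent.Lib.Perm7.Core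

open scoped BigOperators ComplexConjugate
open Cfsg Module Cfsg.Agent.Lib.Char.Induced Cfsg.Agent.Lib.Char.Ortho Cfsg.Agent.Lib.Char.Linear
open Cfsg.Agent.Lib.Char.Basic Cfsg.Agent.Lib.Char.GenLattice Cfsg.Agent.Lib.Char.Complete
open Cfsg.Agent.Lib.Char.IndRep Cfsg.Agent.Lib.Perm7.Exc Cfsg.Agent.Lib.Perm7.Label
open Cfsg.Agent.Lib.Perm7.Frob Cfsg.Agent.Lib.Perm7.Integ

universe u

variable {G : Type u} [Group G]

/-- The hypotheses. -/
structure Sys (p : ℕ) (P E : Subgroup G) (u : G) (χp : G → ℂ) : Prop where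
  hT : TIE E u
  hPc : Nat.card P = p
  hp2 : ¬ p ^ 2 ∣ Nat.card G
  hPE : P ⊓ E = ⊥
  hB : Subgroup.normalizer (P : Set G) = P ⊔ E
  hC : Subgroup.centralizer (P : Set G) = P
  hcyc : IsCyclic E
  hE1 : E ≠ ⊥
  hperf : ∀ l : G →* ℂˣ, l = 1
  hχ : IsIrrCharacter G χp
  hχ1 : χp 1 = p
  hχP : ∀ y ∈ P, y ≠ 1 → χp y = 0
  hχE : ∀ x ∈ E, x ≠ 1 → χp x = 1
  hχr : ∀ g, conj (χp g) = χp g

section Group

variable {p : ℕ} [hp : Fact p.Prime] {P E : Subgroup G} {u : G} {χp : G → ℂ} (S : Sys p P E u χp)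
include S

theorem Sys.le_B : P ≤ Subgroup.normalizer (P : Set G) := by
  rw [S.hB]; exact le_sup_left

theorem Sys.E_le_B : E ≤ Subgroup.normalizer (P : Set G) := by
  rw [S.hB]; exact le_sup_right

theorem Sys.hnorm : ∀ x ∈ E, ∀ y ∈ P, x * y * x⁻¹ ∈ P := fun x hx y hy =>
  (Subgroup.mem_set_normalizer_iff.mp (S.E_le_B hx) y).mp hy

/-- `E` acts fixed point freely on `P`. -/
theorem Sys.fpf {x : G} (hx : x ∈ E) (hx1 : x ≠ 1) {y : G} (hy : y ∈ P) (hc : x * y = y * x) : y = 1 := by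
  by_contra hy1
  apply hx1
  have hP : IsCyclic P := isCyclic_of_prime_card (p := p) S.hPc
  have hcen : x ∈ Subgroup.centralizer (P : Set G) := by
    rw [Subgroup.mem_centralizer_iff]
    intro z hz
    -- `z` is a power of `y`
    have hz' : z ∈ Subgroup.zpowers y := by
      have h1 : (⟨y, hy⟩ : P) ≠ 1 := fun h => hy1 (congrArg Subtype.val h)
      have h2 := zpowers_eq_top_of_prime_card (G := P) S.hPc h1
      have h3 : (⟨z, hz⟩ : P) ∈ Subgroup.zpowers (⟨y, hy⟩ : P) := by rw [h2]; trivial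
      obtain ⟨k, hk⟩ := Subgroup.mem_zpowers_iff.mp h3
      exact Subgroup.mem_zpowers_iff.mpr ⟨k, by simpa using congrArg Subtype.val hk⟩
    obtain ⟨k, rfl⟩ := Subgroup.mem_zpowers_iff.mp hz'
    have hcomm : Commute x y := hc
    exact (hcomm.zpow_right k).eq.symm
  rw [S.hC] at hcen
  have : x ∈ P ⊓ E := ⟨hcen, hx⟩
  rw [S.hPE] at this
  simpa using this

/-- The map `z ↦ z x z⁻¹ x⁻¹` on `P` is bijective, so each `y x` is conjugate to `x`. -/
theorem Sys.exists_conj_of_mem {x : G} (hx : x ∈ E) (hx1 : x ≠ 1) {y : G} (hy : y ∈ P) :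
    ∃ z ∈ P, y * x = z * x * z⁻¹ := by
  classical
  haveI : Finite P := Nat.finite_of_card_ne_zero (by rw [S.hPc]; exact hp.out.ne_zero)
  let f : P → P := fun z => ⟨z * (x * (z : G)⁻¹ * x⁻¹), P.mul_mem z.2 (S.hnorm x hx _ (P.inv_mem z.2))⟩
  have hinj : Function.Injective f := by
    intro a b hab
    have h1 : (a : G) * (x * (a : G)⁻¹ * x⁻¹) = b * (x * (b : G)⁻¹ * x⁻¹) := congrArg Subtype.val hab
    have h2 : x * ((b : G)⁻¹ * a) = ((b : G)⁻¹ * a) * x := by
      have h3 : (b : G)⁻¹ * (a * (x * (a : G)⁻¹ * x⁻¹)) * x * a = (b : G)⁻¹ * (b * (x * (b : G)⁻¹ * x⁻¹)) * x * a := by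
        rw [h1]
      calc x * ((b : G)⁻¹ * a) = (b : G)⁻¹ * (b * (x * (b : G)⁻¹ * x⁻¹)) * x * a := by group
        _ = (b : G)⁻¹ * (a * (x * (a : G)⁻¹ * x⁻¹)) * x * a := h3.symm
        _ = ((b : G)⁻¹ * a) * x := by group
    have h4 := S.fpf hx hx1 (P.mul_mem (P.inv_mem b.2) a.2) h2
    apply Subtype.ext
    have : (a : G) = b := by
      have h5 : (b : G) * ((b : G)⁻¹ * a) = b := by rw [h4, mul_one]
      simpa using h5
    exact this
  obtain ⟨z, hz⟩ := (Finite.injective_iff_surjective.mp hinj) ⟨y, hy⟩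
  refine ⟨z, z.2, ?_⟩
  have h1 : (z : G) * (x * (z : G)⁻¹ * x⁻¹) = y := congrArg Subtype.val hz
  rw [← h1]
  group

/-- Class function values on `y x`. -/
theorem Sys.cf_mul {F : G → ℂ} (hF : IsClassFunction G F) {x : G} (hx : x ∈ E) (hx1 : x ≠ 1) {y : G} (hy : y ∈ P) :
    F (y * x) = F x := by
  obtain ⟨z, -, hz⟩ := S.exists_conj_of_mem hx hx1 hy
  rw [hz]
  exact hF x z

/-- An element of order dividing `p` in `N(P)` lies in `P`. -/
theorem Sys.mem_of_pow [Finite G] {z : G} (hz : z ∈ Subgroup.normalizer (P : Set G)) (hzp : z ^ p = 1) : z ∈ P := by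
  classical
  have hP : IsPGroup p P := IsPGroup.of_card (n := 1) (by rw [S.hPc, pow_one])
  have hQ : IsPGroup p (Subgroup.zpowers z) := by
    have h1 := orderOf_dvd_of_pow_eq_one hzp
    rcases (Nat.dvd_prime hp.out).mp h1 with h2 | h2
    · apply IsPGroup.of_card (n := 0)
      rw [Nat.card_zpowers, h2, pow_zero]
    · apply IsPGroup.of_card (n := 1)
      rw [Nat.card_zpowers, h2, pow_one]
  have hle : Subgroup.zpowers z ≤ Subgroup.normalizer (P : Set G) := by
    rw [Subgroup.zpowers_le]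
    exact hz
  have hsup : IsPGroup p ((Subgroup.zpowers z ⊔ P : Subgroup G) : Subgroup G) :=
    hQ.to_sup_of_normal_right' hP hle
  obtain ⟨k, hk⟩ := IsPGroup.iff_card.mp hsup
  have hdvd : p ^ k ∣ Nat.card G := by
    rw [← hk]
    exact Subgroup.card_subgroup_dvd_card _
  have hk1 : k ≤ 1 := by
    by_contra hne
    apply S.hp2
    exact (pow_dvd_pow p (by omega)).trans hdvd
  have hcard : Nat.card ((Subgroup.zpowers z ⊔ P : Subgroup G) : Subgroup G) ≤ Nat.card P := by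
    rw [hk, S.hPc]
    calc p ^ k ≤ p ^ 1 := Nat.pow_le_pow_right hp.out.pos hk1
      _ = p := pow_one p
  have heq := Subgroup.eq_of_le_of_card_ge (le_sup_right : P ≤ Subgroup.zpowers z ⊔ P) hcard
  rw [heq]
  exact (le_sup_left : Subgroup.zpowers z ≤ Subgroup.zpowers z ⊔ P) (Subgroup.mem_zpowers z)

/-- The order of `E` is prime to `p`. -/
theorem Sys.coprime_card [Finite G] : Nat.Coprime p (Nat.card E) := by
  classical
  rw [hp.out.coprime_iff_not_dvd]
  intro hd
  obtain ⟨x, hx⟩ := exists_prime_orderOf_dvd_card' (G := E) p hd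
  have hx1 : ((x : E) : G) ^ p = 1 := by
    have : x ^ p = 1 := by rw [← hx]; exact pow_orderOf_eq_one x
    exact_mod_cast congrArg Subtype.val this
  have h1 := S.mem_of_pow (S.E_le_B x.2) hx1
  have h2 : (x : G) ∈ P ⊓ E := ⟨h1, x.2⟩
  rw [S.hPE] at h2
  have h3 : x = 1 := Subtype.ext (by simpa using h2)
  rw [h3, orderOf_one] at hx
  exact hp.out.one_lt.ne hx

/-- `P` acts freely on the non-base cosets of `N(P)`. -/
theorem Sys.hfree [Finite G] (g : G) (hg : g ∉ Subgroup.normalizer (P : Set G)) (h : G) (hh : h ∈ P)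
    (hconj : g⁻¹ * h * g ∈ Subgroup.normalizer (P : Set G)) : h = 1 := by
  classical
  by_contra hne
  apply hg
  haveI : Finite P := Nat.finite_of_card_ne_zero (by rw [S.hPc]; exact hp.out.ne_zero)
  have hhp : h ^ p = 1 := by
    have h1 : (⟨h, hh⟩ : P) ^ Nat.card P = 1 := pow_card_eq_one'
    rw [S.hPc] at h1
    have := congrArg Subtype.val h1
    simpa using this
  have h1 : g⁻¹ * h * g ∈ P := by
    apply S.mem_of_pow hconj
    have e : g⁻¹ * h * g = g⁻¹ * h * (g⁻¹)⁻¹ := by simp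
    rw [e, conj_pow, hhp]
    simp
  -- all of `P` is conjugated into `P`
  have h2 : ∀ n ∈ P, g⁻¹ * n * g ∈ P := by
    intro n hn
    have h3 : (⟨h, hh⟩ : P) ≠ 1 := fun h' => hne (congrArg Subtype.val h')
    have h4 := zpowers_eq_top_of_prime_card (G := P) S.hPc h3
    have h5 : (⟨n, hn⟩ : P) ∈ Subgroup.zpowers (⟨h, hh⟩ : P) := by rw [h4]; trivial
    obtain ⟨k, hk⟩ := Subgroup.mem_zpowers_iff.mp h5
    have h6 : n = h ^ k := by
      have := congrArg Subtype.val hk
      simpa using this.symm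
    rw [h6]
    have e : g⁻¹ * h ^ k * g = (g⁻¹ * h * g) ^ k := by
      have e1 : ∀ a : G, g⁻¹ * a * g = g⁻¹ * a * (g⁻¹)⁻¹ := by simp
      rw [e1, e1, conj_zpow]
    rw [e]
    exact P.zpow_mem h1 k
  let ψ : P → P := fun n => ⟨g⁻¹ * n * g, h2 n n.2⟩
  have hψ : Function.Injective ψ := by
    intro a c hac
    have h3 : g⁻¹ * (a : G) * g = g⁻¹ * c * g := congrArg Subtype.val hac
    apply Subtype.ext
    simpa using h3
  have hsurj := Finite.injective_iff_surjective.mp hψ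
  rw [Subgroup.mem_normalizer_iff]
  intro n
  constructor
  · intro hn
    obtain ⟨m, hm⟩ := hsurj ⟨n, hn⟩
    have h3 : g⁻¹ * (m : G) * g = n := congrArg Subtype.val hm
    rw [← h3]
    have e : g * (g⁻¹ * (m : G) * g) * g⁻¹ = m := by group
    rw [e]
    exact m.2
  · intro hn
    have := h2 _ hn
    have e : g⁻¹ * (g * n * g⁻¹) * g = n := by group
    rwa [e] at this

/-- The elements of `P#` are not conjugate into `E`. -/
theorem Sys.not_conj [Finite G] {y : G} (hy : y ∈ P) (hy1 : y ≠ 1) (a : G) (x : E) : y ≠ a * x * a⁻¹ := by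
  classical
  intro h
  haveI : Finite P := Nat.finite_of_card_ne_zero (by rw [S.hPc]; exact hp.out.ne_zero)
  have h1 : orderOf y = p := by
    have h2 : orderOf (⟨y, hy⟩ : P) ∣ Nat.card P := orderOf_dvd_natCard _
    rw [S.hPc] at h2
    have h3 : orderOf (⟨y, hy⟩ : P) = orderOf y := Subgroup.orderOf_mk _ _
    rw [h3] at h2
    rcases (Nat.dvd_prime hp.out).mp h2 with h4 | h4
    · rw [orderOf_eq_one_iff] at h4
      exact absurd h4 hy1
    · exact h4
  have h2 : orderOf y = orderOf (x : G) := by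
    rw [h]
    exact orderOf_injective (MulAut.conj a).toMonoidHom (MulEquiv.injective _) _
  have h3 : orderOf (x : G) ∣ Nat.card E := by
    have : orderOf x ∣ Nat.card E := orderOf_dvd_natCard x
    rw [Subgroup.orderOf_coe]
    exact this
  rw [← h2, h1] at h3
  have h4 := S.coprime_card
  rw [hp.out.coprime_iff_not_dvd] at h4
  exact h4 h3

end Group

section Chars

variable [Fintype G] {p : ℕ} [hp : Fact p.Prime] {P E : Subgroup G} [Fintype P] [Fintype E]
  {u : G} {χp : G → ℂ} (S : Sys p P E u χp)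

/-- The function `rest`. -/
noncomputable def rst (χp : G → ℂ) (θ : E →* ℂˣ) : G → ℂ := fun g => gam θ g + 1 + χp g

theorem conj_val {A : Type*} [Group A] [Finite A] (θ : A →* ℂˣ) (x : A) : conj ((θ x : ℂˣ) : ℂ) = tb θ x := by
  have h0 : orderOf x ≠ 0 := (orderOf_pos _).ne'
  have h1 : ((θ x : ℂˣ) : ℂ) ^ orderOf x = 1 := by
    rw [← Units.val_pow_eq_pow_val, ← map_pow, pow_orderOf_eq_one, map_one, Units.val_one]
  have h2 : ‖((θ x : ℂˣ) : ℂ)‖ = 1 := Complex.norm_eq_one_of_pow_eq_one h1 h0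
  have h3 := Complex.inv_eq_conj h2
  rw [← h3, tb, Units.val_inv_eq_inv_val]

/-- Orthogonality, in the form of a sum. -/
theorem sum_tb_mul (l θ : E →* ℂˣ) [Decidable (θ = l)] :
    ∑ x : E, tb l x * ((θ x : ℂˣ) : ℂ) = if θ = l then ((Fintype.card E : ℕ) : ℂ) else 0 := by
  have h := inner_lin θ l
  rw [classInner_def] at h
  have h2 : ∑ x : E, lin θ x * conj (lin l x) = ∑ x : E, tb l x * ((θ x : ℂˣ) : ℂ) := by
    refine Finset.sum_congr rfl fun x _ => ?_
    rw [lin_apply, lin_apply, conj_val, mul_comm]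
  rw [h2] at h
  have hE : ((Nat.card E : ℕ) : ℂ) ≠ 0 := Nat.cast_ne_zero.mpr Nat.card_pos.ne'
  rw [inv_mul_eq_iff_eq_mul₀ hE, ← Nat.card_eq_fintype_card] at *
  rw [h]
  split_ifs <;> simp

include S

theorem Sys.card_P : Fintype.card P = p := by
  rw [← Nat.card_eq_fintype_card, S.hPc]

/-- The degree is not `1`. -/
theorem Sys.p_ne_one : (p : ℂ) ≠ 1 := by
  exact_mod_cast hp.out.ne_one

theorem Sys.isClass_χ : IsClassFunction G χp := isClassFunction_of_isIrrCharacter S.hχ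

theorem Sys.isClass_rst (θ : E →* ℂˣ) : IsClassFunction G (rst χp θ) := by
  intro g h
  simp only [rst]
  rw [isClass_gam θ g h, S.isClass_χ g h]

theorem Sys.isGen_rst (θ : E →* ℂˣ) : IsGeneralizedCharacter G (rst χp θ) := by
  have h : rst χp θ = gam θ + (fun _ => 1) + χp := rfl
  rw [h]
  exact isGenChar_add (isGenChar_add (isGen_gam θ) isGenChar_one) (isGenChar_of_isIrr S.hχ)

theorem Sys.rst_one (θ : E →* ℂˣ) : rst χp θ 1 = p + 1 := by
  simp only [rst]
  rw [gam_one, S.hχ1]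
  ring

theorem Sys.rst_E (θ : E →* ℂˣ) {x : E} (hx : x ≠ 1) :
    rst χp θ x = ((θ x : ℂˣ) : ℂ) + ((tu S.hT θ x : ℂˣ) : ℂ) := by
  simp only [rst]
  rw [gam_apply S.hT θ hx, S.hχE x x.2 (fun h => hx (Subtype.ext h))]
  simp only [ff, tu_apply]
  ring

theorem Sys.rst_P (θ : E →* ℂˣ) {y : G} (hy : y ∈ P) (hy1 : y ≠ 1) : rst χp θ y = 1 := by
  simp only [rst]
  rw [gam_eq_zero θ (fun a x _ => S.not_conj hy hy1 a x), S.hχP y hy hy1]
  ring

/-- `χp` is not the trivial character. -/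
theorem Sys.inner_one_χ : classInner (fun _ : G => (1 : ℂ)) χp = 0 := by
  have hone : IsIrrCharacter G (fun _ : G => (1 : ℂ)) := by
    simpa using isIrrCharacter_of_hom (1 : G →* ℂˣ)
  apply classInner_eq_zero_of_isIrr_of_ne hone S.hχ
  intro h
  have h1 := congrFun h 1
  rw [S.hχ1] at h1
  exact S.p_ne_one h1.symm

theorem Sys.inner_χ_one : classInner χp (fun _ : G => (1 : ℂ)) = 0 := by
  have h := classInner_conj (fun _ : G => (1 : ℂ)) χp
  rw [S.inner_one_χ] at h
  simpa using h.symm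

omit S in
theorem inner_one_one : classInner (fun _ : G => (1 : ℂ)) (fun _ : G => (1 : ℂ)) = 1 := by
  have hone : IsIrrCharacter G (fun _ : G => (1 : ℂ)) := by
    simpa using isIrrCharacter_of_hom (1 : G →* ℂˣ)
  exact classInner_self_of_isIrr hone

theorem Sys.inner_gam_one {θ : E →* ℂˣ} (hθ : θ ≠ 1) : classInner (gam θ) (fun _ : G => (1 : ℂ)) = -1 :=
  inner_gam_of_one θ hθ (fun _ _ => rfl) (fun _ _ => rfl)

theorem Sys.inner_gam_χ {θ : E →* ℂˣ} (hθ : θ ≠ 1) : classInner (gam θ) χp = -1 :=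
  inner_gam_of_one θ hθ S.isClass_χ (fun x hx => S.hχE x x.2 (fun h => hx (Subtype.ext h)))

theorem Sys.inner_one_gam {θ : E →* ℂˣ} (hθ : θ ≠ 1) : classInner (fun _ : G => (1 : ℂ)) (gam θ) = -1 := by
  have h := classInner_conj (gam θ) (fun _ : G => (1 : ℂ))
  rw [S.inner_gam_one hθ] at h
  rw [← h]
  simp

theorem Sys.inner_χ_gam {θ : E →* ℂˣ} (hθ : θ ≠ 1) : classInner χp (gam θ) = -1 := by
  have h := classInner_conj (gam θ) χp
  rw [S.inner_gam_χ hθ] at h
  rw [← h]
  simp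

theorem Sys.inner_χ_χ : classInner χp χp = 1 := classInner_self_of_isIrr S.hχ

omit S in
theorem rst_eq (θ : E →* ℂˣ) : rst χp θ = gam θ + (fun _ => 1) + χp := rfl

/-- Inner product with a class function. -/
theorem Sys.inner_rst_left (θ : E →* ℂˣ) (ψ : G → ℂ) :
    classInner (rst χp θ) ψ = classInner (gam θ) ψ + classInner (fun _ : G => (1 : ℂ)) ψ + classInner χp ψ := by
  rw [rst_eq, classInner_add_left, classInner_add_left]

theorem Sys.inner_rst_right (ψ : G → ℂ) (θ : E →* ℂˣ) :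
    classInner ψ (rst χp θ) = classInner ψ (gam θ) + classInner ψ (fun _ : G => (1 : ℂ)) + classInner ψ χp := by
  rw [rst_eq, classInner_add_right, classInner_add_right]

/-- The Gram matrix of `rst`. -/
theorem Sys.inner_rst (θ θ' : E →* ℂˣ) (hθ : θ ≠ 1) (hθ' : θ' ≠ 1) [Decidable (θ = θ')]
    [Decidable (θ = tu S.hT θ')] :
    classInner (rst χp θ) (rst χp θ') = (if θ = θ' then 1 else 0) + (if θ = tu S.hT θ' then 1 else 0) := by
  rw [S.inner_rst_left, S.inner_rst_right, S.inner_rst_right, S.inner_rst_right, inner_gam_gam S.hT hθ hθ',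
    S.inner_gam_one hθ, S.inner_gam_χ hθ, S.inner_one_gam hθ', inner_one_one, S.inner_one_χ,
    S.inner_χ_gam hθ', S.inner_χ_one, S.inner_χ_χ]
  ring

theorem Sys.inner_rst_one {θ : E →* ℂˣ} (hθ : θ ≠ 1) : classInner (rst χp θ) (fun _ : G => (1 : ℂ)) = 0 := by
  rw [S.inner_rst_left, S.inner_gam_one hθ, inner_one_one, S.inner_χ_one]
  ring

theorem Sys.inner_rst_χ {θ : E →* ℂˣ} (hθ : θ ≠ 1) : classInner (rst χp θ) χp = 0 := by
  rw [S.inner_rst_left, S.inner_gam_χ hθ, S.inner_one_χ, S.inner_χ_χ]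
  ring

/-- `gam` is invariant under the action of `u`. -/
theorem Sys.gam_tu (θ : E →* ℂˣ) : gam (tu S.hT θ) = gam θ := by
  classical
  funext g
  by_cases hg : ∃ (a : G) (x : E), x ≠ 1 ∧ g = a * x * a⁻¹
  · obtain ⟨a, x, hx, rfl⟩ := hg
    rw [isClass_gam, isClass_gam, gam_apply S.hT _ hx, gam_apply S.hT _ hx]
    simp only [ff, tu_apply, cu_cu]
    ring
  · push Not at hg
    rw [gam_eq_zero _ hg, gam_eq_zero _ hg]

theorem Sys.rst_tu (θ : E →* ℂˣ) : rst χp (tu S.hT θ) = rst χp θ := by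
  simp only [rst_eq, S.gam_tu]

/-- The double sum at the identity, for a class function with given values. -/
theorem Sys.bet_one_of (l : E →* ℂˣ) {F : G → ℂ} (hF : IsClassFunction G F) (c : E → ℂ)
    (hc1 : ∑ y : P, F y = p * c 1) (hc : ∀ x : E, x ≠ 1 → F x = c x) :
    bet P E l F 1 = p * ∑ x : E, tb l x * c x := by
  unfold bet
  rw [Finset.mul_sum]
  refine Finset.sum_congr rfl fun x _ => ?_
  simp only [one_mul]
  rw [← Finset.mul_sum]
  by_cases hx : x = 1
  · subst hx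
    simp only [OneMemClass.coe_one, mul_one]
    rw [hc1]
    ring
  · have hx1 : (x : G) ≠ 1 := fun h => hx (Subtype.ext h)
    have h1 : ∀ y : P, F ((y : G) * x) = c x := fun y => by
      rw [S.cf_mul hF x.2 hx1 y.2, hc x hx]
    simp only [h1]
    rw [Finset.sum_const, Finset.card_univ, S.card_P, nsmul_eq_mul]
    ring

omit S in
/-- The sum over `P` with a constant value on `P#`. -/
theorem sum_P_of_const (F : G → ℂ) (c : ℂ) (hF : ∀ y ∈ P, y ≠ 1 → F y = c) :
    ∑ y : P, F y = F 1 + ((Fintype.card P : ℂ) - 1) * c := by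
  classical
  rw [← Finset.add_sum_erase _ _ (Finset.mem_univ (1 : P))]
  congr 1
  have h1 : ∀ y ∈ Finset.univ.erase (1 : P), F y = c := fun y hy => by
    apply hF y y.2
    intro h
    exact (Finset.ne_of_mem_erase hy) (Subtype.ext h)
  rw [Finset.sum_congr rfl h1, Finset.sum_const, Finset.card_erase_of_mem (Finset.mem_univ _), Finset.card_univ,
    nsmul_eq_mul]
  have : 1 ≤ Fintype.card P := Fintype.card_pos
  push_cast [Nat.cast_sub this]
  ring

theorem Sys.sum_rst (θ : E →* ℂˣ) : ∑ y : P, rst χp θ y = 2 * p := by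
  rw [sum_P_of_const _ 1 (fun y hy hy1 => S.rst_P θ hy hy1), S.rst_one, S.card_P]
  ring

theorem Sys.sum_χ : ∑ y : P, χp y = p := by
  rw [sum_P_of_const _ 0 (fun y hy hy1 => S.hχP y hy hy1), S.hχ1]
  ring

/-- The double sum for `rst θ` at the identity. -/
theorem Sys.bet_rst_one (l θ : E →* ℂˣ) [Decidable (θ = l)] [Decidable (tu S.hT θ = l)] :
    bet P E l (rst χp θ) 1 = ((Fintype.card P * Fintype.card E : ℕ) : ℂ) *
      ((if θ = l then 1 else 0) + (if tu S.hT θ = l then 1 else 0)) := by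
  rw [S.bet_one_of l (S.isClass_rst θ) (fun x : E => ((θ x : ℂˣ) : ℂ) + ((tu S.hT θ x : ℂˣ) : ℂ))]
  · simp only [mul_add]
    rw [Finset.sum_add_distrib, sum_tb_mul, sum_tb_mul, S.card_P]
    push_cast
    split_ifs <;> ring
  · rw [S.sum_rst]
    simp
    ring
  · intro x hx
    exact S.rst_E θ hx

/-- The double sum for `χp` at the identity. -/
theorem Sys.bet_χ_one (l : E →* ℂˣ) [Decidable ((1 : E →* ℂˣ) = l)] :
    bet P E l χp 1 = ((Fintype.card P * Fintype.card E : ℕ) : ℂ) * (if (1 : E →* ℂˣ) = l then 1 else 0) := by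
  rw [S.bet_one_of l S.isClass_χ (fun x : E => (((1 : E →* ℂˣ) x : ℂˣ) : ℂ))]
  · rw [sum_tb_mul, S.card_P]
    push_cast
    split_ifs <;> ring
  · rw [S.sum_χ]
    simp
  · intro x hx
    rw [S.hχE x x.2 (fun h => hx (Subtype.ext h))]
    simp

omit S in
/-- The double sum for the trivial character. -/
theorem bet_triv (l : E →* ℂˣ) (g : G) [Decidable ((1 : E →* ℂˣ) = l)] :
    bet P E l (fun _ => 1) g = ((Fintype.card P * Fintype.card E : ℕ) : ℂ) * (if (1 : E →* ℂˣ) = l then 1 else 0) := by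
  unfold bet
  have h1 : ∀ x : E, ∑ y : P, tb l x * (1 : ℂ) = (Fintype.card P : ℂ) * (tb l x * (((1 : E →* ℂˣ) x : ℂˣ) : ℂ)) := by
    intro x
    rw [Finset.sum_const, Finset.card_univ, nsmul_eq_mul]
    simp
  simp only [h1]
  rw [← Finset.mul_sum, sum_tb_mul]
  push_cast
  split_ifs <;> ring

end Chars

end Cfsg.Agent.Lib.Perm7.Core
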